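import Mathlib

set_option autoImplicit false

namespace Cfsg.Agent.Lib.Helper7

/-- `X ≤ N` iff the image of `X` in `G ⧸ N` is trivial. -/
theorem map_mk'_eq_bot_iff {G : Type*} [Group G] (N : Subgroup G) [N.Normal] (X : Subgroup G) :
    X.map (QuotientGroup.mk' N) = ⊥ ↔ X ≤ N := by
  rw [Subgroup.map_eq_bot_iff, QuotientGroup.ker_mk']

/-- Three subgroups lemma with a normal target subgroup. -/
theorem three_subgroups_normal {G : Type*} [Group G] (N : Subgroup G) [N.Normal] (A B C : Subgroup G)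
    (h1 : ⁅⁅B, C⁆, A⁆ ≤ N) (h2 : ⁅⁅C, A⁆, B⁆ ≤ N) : ⁅⁅A, B⁆, C⁆ ≤ N := by
  rw [← map_mk'_eq_bot_iff] at h1 h2 ⊢
  rw [Subgroup.map_commutator, Subgroup.map_commutator] at h1 h2 ⊢
  exact Subgroup.commutator_commutator_eq_bot_of_rotate h1 h2

end Cfsg.Agent.Lib.Helper7
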