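import Mathlib
import Cfsg.Prelude.Def_Blocks
import Cfsg.Agent.Lib.Helper7.OneBlock
import Cfsg.Agent.Lib.Lead.BlockMinMax
import Cfsg.Agent.Lib.Lead.BlockOsima
import Cfsg.Agent.Lib.Lead.BlockAux2

set_option autoImplicit false
open scoped BigOperators ComplexConjugate

namespace Cfsg.Agent.Lib.Helper7
open Cfsg.Agent.Lib.Lead

universe u

section suppspec

variable {G : Type u} [Group G] [Fintype G]

/-- `a` is the function of values on the irreducible characters of a central element of the group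
algebra supported on the subgroup `C`. -/
def IsSuppSpec (C : Subgroup G) (a : Cfsg.IrrCharacter G → ℂ) : Prop :=
  ∃ c : G → ℂ, Cfsg.IsClassFunction G c ∧ (∀ g, g ∉ C → c g = 0) ∧
    ∀ η : Cfsg.IrrCharacter G, ∑ g : G, c g * (η : G → ℂ) g = a η * (η : G → ℂ) 1

theorem isSuppSpec_one (C : Subgroup G) : IsSuppSpec C (fun _ => 1) := by
  classical
  refine ⟨fun g => if g = 1 then 1 else 0, ?_, ?_, ?_⟩
  · intro g h
    show (if h * g * h⁻¹ = 1 then (1 : ℂ) else 0) = if g = 1 then 1 else 0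
    exact if_congr conj_eq_one_iff rfl rfl
  · intro g hg
    show (if g = 1 then (1 : ℂ) else 0) = 0
    rw [if_neg]
    intro h; apply hg; rw [h]; exact C.one_mem
  · intro η
    show ∑ g : G, (if g = 1 then (1 : ℂ) else 0) * (η : G → ℂ) g = 1 * (η : G → ℂ) 1
    rw [Finset.sum_eq_single (1 : G)]
    · rw [if_pos rfl]
    · intro g _ hg
      rw [if_neg hg, zero_mul]
    · intro h
      exact absurd (Finset.mem_univ _) h

theorem isSuppSpec_class (C : Subgroup G) [hC : C.Normal] (k : G) (hk : k ∈ C) :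
    IsSuppSpec C (fun η : Cfsg.IrrCharacter G => Cfsg.centralChar (η : G → ℂ) k) := by
  classical
  refine ⟨fun g => if IsConj g k then 1 else 0, ?_, ?_, ?_⟩
  · intro g h
    show (if IsConj (h * g * h⁻¹) k then (1 : ℂ) else 0) = if IsConj g k then 1 else 0
    have hc : IsConj g (h * g * h⁻¹) := isConj_iff.mpr ⟨h, rfl⟩
    exact if_congr ⟨fun h1 => hc.trans h1, fun h1 => hc.symm.trans h1⟩ rfl rfl
  · intro g hg
    show (if IsConj g k then (1 : ℂ) else 0) = 0
    rw [if_neg]
    intro h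
    apply hg
    obtain ⟨c, hc⟩ := isConj_iff.mp h.symm
    rw [← hc]
    exact hC.conj_mem k hk c
  · intro η
    exact class_transform_lead k _ (fun g hg => if_pos hg) (fun g hg => if_neg hg) η

theorem isSuppSpec_smul (C : Subgroup G) {a : Cfsg.IrrCharacter G → ℂ} (r : ℂ)
    (h : IsSuppSpec C a) : IsSuppSpec C (fun η => r * a η) := by
  obtain ⟨c, hc, hs, ht⟩ := h
  refine ⟨fun g => r * c g, ?_, ?_, ?_⟩
  · intro g x
    show r * c (x * g * x⁻¹) = r * c g
    rw [hc g x]
  · intro g hg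
    show r * c g = 0
    rw [hs g hg, mul_zero]
  · intro η
    show ∑ g : G, r * c g * (η : G → ℂ) g = r * a η * (η : G → ℂ) 1
    rw [mul_assoc, ← ht η, Finset.mul_sum]
    apply Finset.sum_congr rfl
    intro g _
    ring

theorem isSuppSpec_sub (C : Subgroup G) {a a' : Cfsg.IrrCharacter G → ℂ}
    (h : IsSuppSpec C a) (h' : IsSuppSpec C a') : IsSuppSpec C (fun η => a η - a' η) := by
  obtain ⟨c, hc, hs, ht⟩ := h
  obtain ⟨c', hc', hs', ht'⟩ := h'
  refine ⟨fun g => c g - c' g, ?_, ?_, ?_⟩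
  · intro g x
    show c (x * g * x⁻¹) - c' (x * g * x⁻¹) = c g - c' g
    rw [hc g x, hc' g x]
  · intro g hg
    show c g - c' g = 0
    rw [hs g hg, hs' g hg, sub_zero]
  · intro η
    show ∑ g : G, (c g - c' g) * (η : G → ℂ) g = (a η - a' η) * (η : G → ℂ) 1
    rw [sub_mul, ← ht η, ← ht' η, ← Finset.sum_sub_distrib]
    apply Finset.sum_congr rfl
    intro g _
    ring

theorem isSuppSpec_mul (C : Subgroup G) {a a' : Cfsg.IrrCharacter G → ℂ}
    (h : IsSuppSpec C a) (h' : IsSuppSpec C a') : IsSuppSpec C (fun η => a η * a' η) := by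
  obtain ⟨c, hc, hs, ht⟩ := h
  obtain ⟨c', hc', hs', ht'⟩ := h'
  refine ⟨fun g => ∑ x : G, c x * c' (x⁻¹ * g), conv_classFun_lead c c' hc hc', ?_, ?_⟩
  · intro g hg
    show ∑ x : G, c x * c' (x⁻¹ * g) = 0
    apply Finset.sum_eq_zero
    intro x _
    by_cases hx : x ∈ C
    · have : x⁻¹ * g ∉ C := by
        intro h1
        apply hg
        have := C.mul_mem hx h1
        rwa [mul_inv_cancel_left] at this
      rw [hs' _ this, mul_zero]
    · rw [hs x hx, zero_mul]
  · intro η
    obtain ⟨d, hd0, hd⟩ := irr_one η.2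
    have hη1 : (η : G → ℂ) 1 ≠ 0 := by
      rw [hd]
      exact_mod_cast hd0
    rw [conv_transform_lead c c' hc (η : G → ℂ) η.2, ht η, ht' η]
    field_simp

theorem isSuppSpec_prod (C : Subgroup G) {ι : Type*} (s : Finset ι)
    (a : ι → Cfsg.IrrCharacter G → ℂ) (h : ∀ i ∈ s, IsSuppSpec C (a i)) :
    IsSuppSpec C (fun η => ∏ i ∈ s, a i η) := by
  classical
  induction s using Finset.induction_on with
  | empty =>
    have e : (fun η : Cfsg.IrrCharacter G => ∏ i ∈ (∅ : Finset ι), a i η) = fun _ => 1 := by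
      funext η; rw [Finset.prod_empty]
    rw [e]; exact isSuppSpec_one C
  | insert i s hi ih =>
    have e : (fun η : Cfsg.IrrCharacter G => ∏ j ∈ insert i s, a j η) =
        fun η => a i η * ∏ j ∈ s, a j η := by
      funext η; rw [Finset.prod_insert hi]
    rw [e]
    exact isSuppSpec_mul C (h i (Finset.mem_insert_self i s))
      (ih (fun j hj => h j (Finset.mem_insert_of_mem hj)))

/-- If the central characters on the classes inside a normal subgroup `C` separate a set `B` of
irreducible characters from its complement, the idempotent of `B` is supported on `C`. -/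
theorem supp_of_separated (C : Subgroup G) [hC : C.Normal] (B : Set (Cfsg.IrrCharacter G))
    (hsep : ∀ χ ∈ B, ∀ ψ : Cfsg.IrrCharacter G, ψ ∉ B → ∃ k ∈ C,
      Cfsg.centralChar (χ : G → ℂ) k ≠ Cfsg.centralChar (ψ : G → ℂ) k)
    (g : G) (hg : g ∉ C) : Cfsg.blockCoeff B g = 0 := by
  classical
  letI : Fintype (Cfsg.IrrCharacter G) := Fintype.ofFinite _
  have hsep' : ∀ χ ψ : Cfsg.IrrCharacter G, ∃ k : G, χ ∈ B → ψ ∉ B → (k ∈ C ∧
      Cfsg.centralChar (χ : G → ℂ) k ≠ Cfsg.centralChar (ψ : G → ℂ) k) := by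
    intro χ ψ
    by_cases hχ : χ ∈ B
    · by_cases hψ : ψ ∈ B
      · exact ⟨1, fun _ h => absurd hψ h⟩
      · obtain ⟨k, hk, hne⟩ := hsep χ hχ ψ hψ
        exact ⟨k, fun _ _ => ⟨hk, hne⟩⟩
    · exact ⟨1, fun h _ => absurd h hχ⟩
  choose kk hkk using hsep'
  obtain ⟨s, hs⟩ : ∃ s : Cfsg.IrrCharacter G → Cfsg.IrrCharacter G → Cfsg.IrrCharacter G → ℂ,
      ∀ χ ψ η, s χ ψ η = if χ ∈ B ∧ ψ ∉ B then
        (Cfsg.centralChar (η : G → ℂ) (kk χ ψ) - Cfsg.centralChar (ψ : G → ℂ) (kk χ ψ)) /
        (Cfsg.centralChar (χ : G → ℂ) (kk χ ψ) - Cfsg.centralChar (ψ : G → ℂ) (kk χ ψ))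
        else 1 := ⟨_, fun _ _ _ => rfl⟩
  have hsspec : ∀ χ ψ, IsSuppSpec C (s χ ψ) := by
    intro χ ψ
    by_cases hc : χ ∈ B ∧ ψ ∉ B
    · have h1 := isSuppSpec_smul C
        (Cfsg.centralChar (χ : G → ℂ) (kk χ ψ) - Cfsg.centralChar (ψ : G → ℂ) (kk χ ψ))⁻¹
        (isSuppSpec_sub C (isSuppSpec_class C (kk χ ψ) (hkk χ ψ hc.1 hc.2).1)
          (isSuppSpec_smul C (Cfsg.centralChar (ψ : G → ℂ) (kk χ ψ)) (isSuppSpec_one C)))
      have e : s χ ψ = fun η : Cfsg.IrrCharacter G =>
          (Cfsg.centralChar (χ : G → ℂ) (kk χ ψ) - Cfsg.centralChar (ψ : G → ℂ) (kk χ ψ))⁻¹ *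
            (Cfsg.centralChar (η : G → ℂ) (kk χ ψ) -
              Cfsg.centralChar (ψ : G → ℂ) (kk χ ψ) * 1) := by
        funext η
        rw [hs χ ψ η, if_pos hc, mul_one, div_eq_inv_mul]
      rw [e]; exact h1
    · have e : s χ ψ = fun _ => 1 := by
        funext η
        rw [hs χ ψ η, if_neg hc]
      rw [e]; exact isSuppSpec_one C
  obtain ⟨f, hf⟩ : ∃ f : Cfsg.IrrCharacter G → Cfsg.IrrCharacter G → ℂ,
      ∀ χ η, f χ η = if χ ∈ B then 1 - ∏ ψ : Cfsg.IrrCharacter G, s χ ψ η else 1 :=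
    ⟨_, fun _ _ => rfl⟩
  have hfspec : ∀ χ, IsSuppSpec C (f χ) := by
    intro χ
    by_cases hχ : χ ∈ B
    · have e : f χ = fun η => (fun _ : Cfsg.IrrCharacter G => (1 : ℂ)) η -
          (fun η => ∏ ψ : Cfsg.IrrCharacter G, s χ ψ η) η := by
        funext η; rw [hf χ η, if_pos hχ]
      rw [e]
      exact isSuppSpec_sub C (isSuppSpec_one C)
        (isSuppSpec_prod C Finset.univ _ (fun ψ _ => hsspec χ ψ))
    · have e : f χ = fun _ => 1 := by
        funext η; rw [hf χ η, if_neg hχ]
      rw [e]; exact isSuppSpec_one C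
  have huspec : IsSuppSpec C (fun η => (fun _ : Cfsg.IrrCharacter G => (1 : ℂ)) η -
      (fun η => ∏ χ : Cfsg.IrrCharacter G, f χ η) η) :=
    isSuppSpec_sub C (isSuppSpec_one C) (isSuppSpec_prod C Finset.univ _ (fun χ _ => hfspec χ))
  have hval : ∀ η : Cfsg.IrrCharacter G,
      (1 : ℂ) - ∏ χ : Cfsg.IrrCharacter G, f χ η = if η ∈ B then 1 else 0 := by
    intro η
    by_cases hη : η ∈ B
    · rw [if_pos hη]
      have h0 : f η η = 0 := by
        rw [hf η η, if_pos hη]
        have h1 : ∀ ψ ∈ (Finset.univ : Finset (Cfsg.IrrCharacter G)), s η ψ η = 1 := by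
          intro ψ _
          rw [hs η ψ η]
          by_cases hc : η ∈ B ∧ ψ ∉ B
          · rw [if_pos hc]
            have hne := (hkk η ψ hc.1 hc.2).2
            exact div_self (sub_ne_zero.2 hne)
          · rw [if_neg hc]
        rw [Finset.prod_eq_one h1, sub_self]
      rw [Finset.prod_eq_zero (f := fun χ => f χ η) (Finset.mem_univ η) h0, sub_zero]
    · rw [if_neg hη]
      have h1 : ∀ χ ∈ (Finset.univ : Finset (Cfsg.IrrCharacter G)), f χ η = 1 := by
        intro χ _
        rw [hf χ η]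
        by_cases hχ : χ ∈ B
        · rw [if_pos hχ]
          have h0 : s χ η η = 0 := by
            rw [hs χ η η, if_pos ⟨hχ, hη⟩, sub_self, zero_div]
          rw [Finset.prod_eq_zero (f := fun ψ => s χ ψ η) (Finset.mem_univ η) h0, sub_zero]
        · rw [if_neg hχ]
      rw [Finset.prod_eq_one h1, sub_self]
  obtain ⟨c, hc, hsupp, hcT⟩ := huspec
  have h1 := specT_unique_lead c hc _ hcT g
  have h2 : Cfsg.blockCoeff B g = c g := by
    rw [blockCoeff_eq_sum_lead B g, h1]
    congr 1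
    apply Finset.sum_congr rfl
    intro φ _
    have hv := hval φ
    by_cases hφ : φ ∈ B
    · rw [if_pos hφ] at hv
      rw [if_pos hφ]
      show _ = ((1 : ℂ) - ∏ χ : Cfsg.IrrCharacter G, f χ φ) * _
      rw [hv, one_mul]
    · rw [if_neg hφ] at hv
      rw [if_neg hφ]
      show _ = ((1 : ℂ) - ∏ χ : Cfsg.IrrCharacter G, f χ φ) * _
      rw [hv, zero_mul]
  rw [h2, hsupp g hg]

end suppspec

section outside

variable {G : Type u} [Group G] [Fintype G] [DecidableEq G]

/-- The central character of an irreducible character at an element outside the centralizer of a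
normal `p`-subgroup lies in the local ideal. -/
theorem centralChar_mem_of_not_centralizer (p : ℕ) [Fact p.Prime] (M : Ideal Cfsg.AlgInt)
    (hM : Cfsg.IsPModular p M) (Q : Subgroup G) [hQn : Q.Normal] (hQ : IsPGroup p Q)
    (χ : Cfsg.IrrCharacter G) (g : G) (hg : g ∉ Subgroup.centralizer (Q : Set G)) :
    Cfsg.MemLocalIdeal M (Cfsg.centralChar (χ : G → ℂ) g) := by
  classical
  obtain ⟨hp, hMmax, hpM⟩ := hM
  have hMprime : M.IsPrime := hMmax.isPrime
  have hMtop : M ≠ ⊤ := hMprime.ne_top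
  obtain ⟨n, ρ, hρ, hρχ⟩ := χ.2
  haveI := hρ
  have hn : (χ : G → ℂ) 1 = n := by
    rw [← hρχ, Representation.char_one, Module.finrank_fin_fun]
  have hclχ : ∀ x h : G, ρ.character (h * x * h⁻¹) = ρ.character x :=
    fun x h => Representation.char_conj ρ x h
  obtain ⟨K, hK⟩ : ∃ K : Finset G, K = Finset.univ.filter (fun x => IsConj x g) := ⟨_, rfl⟩
  have hKmem : ∀ x, x ∈ K ↔ IsConj x g := by intro x; rw [hK]; simp
  have hKcard : K.card = (Subgroup.centralizer ({g} : Set G)).index := by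
    rw [hK, ← card_class_eq_index, Nat.card_eq_fintype_card, Fintype.card_subtype]
  have hKconj : ∀ x h : G, (h * x * h⁻¹ ∈ K ↔ x ∈ K) := by
    intro x h
    rw [hKmem, hKmem]
    have hc0 : IsConj x (h * x * h⁻¹) := isConj_iff.2 ⟨h, rfl⟩
    constructor
    · intro hc; exact hc0.trans hc
    · intro hc; exact hc0.symm.trans hc
  have hCn : (Subgroup.centralizer (Q : Set G)).Normal := Subgroup.normal_centralizer
  unfold Cfsg.centralChar
  rw [hn, ← hKcard]
  obtain ⟨a, ha⟩ : ∃ a : G → ℤ, a = fun x => (if x ∈ K then (1 : ℤ) else 0) := ⟨_, rfl⟩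
  have hcl : ∀ x h : G, a (h * x * h⁻¹) = a x := by
    intro x h
    rw [ha]
    show (if h * x * h⁻¹ ∈ K then (1 : ℤ) else 0) = (if x ∈ K then (1 : ℤ) else 0)
    have e1 : (h * x * h⁻¹ ∈ K) = (x ∈ K) := propext (hKconj x h)
    simp only [e1]
  have hpL : ∀ v : G → ZMod p, p • v = 0 := by
    intro v
    funext h
    rw [Pi.smul_apply, nsmul_eq_mul, ZMod.natCast_self, zero_mul]; rfl
  have hkill : ∀ w : G → ZMod p, (∀ u ∈ Q, lamZ p u w = w) → opZ (lamZ p) a w = 0 := by
    intro w hw
    have h1 : opZ (lamZ p) a w = ∑ y ∈ K, lamZ p y w := by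
      unfold opZ
      rw [LinearMap.sum_apply, ← Finset.sum_filter_add_sum_filter_not Finset.univ (fun x => x ∈ K)]
      have e1 : ∑ x ∈ Finset.univ.filter (fun x => ¬ x ∈ K),
          (((a x : Module.End (ZMod p) (G → ZMod p))) * lamZ p x) w = 0 := by
        apply Finset.sum_eq_zero
        intro x hx
        have hxK : x ∉ K := (Finset.mem_filter.1 hx).2
        have h0 : a x = 0 := by
          rw [ha]; show (if x ∈ K then (1 : ℤ) else 0) = 0
          rw [if_neg hxK]
        rw [h0]; simp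
      rw [e1, add_zero]
      have e2 : Finset.univ.filter (fun x => x ∈ K) = K := by
        ext x; simp
      rw [e2]
      apply Finset.sum_congr rfl
      intro x hx
      have h1 : a x = 1 := by
        rw [ha]; show (if x ∈ K then (1 : ℤ) else 0) = 1
        rw [if_pos hx]
      rw [h1]; simp
    rw [h1]
    have hyfix : ∀ y : G, ∀ u ∈ Q, lamZ p u (lamZ p y w) = lamZ p y w := by
      intro y u hu
      have e : u * y = y * (y⁻¹ * u * y) := by group
      have h2 : lamZ p (u * y) w = lamZ p (y * (y⁻¹ * u * y)) w := by rw [← e]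
      rw [map_mul, map_mul] at h2
      have h3 : lamZ p (y⁻¹ * u * y) w = w := hw _ (hQn.conj_mem' u hu y)
      rw [Module.End.mul_apply, Module.End.mul_apply, h3] at h2
      exact h2
    apply orbit_sum_zero p hpL Q hQ (fun y => lamZ p y w) K
    · intro u _ y hy
      exact (hKconj y u).2 hy
    · intro u hu y _
      show lamZ p (u * y * u⁻¹) w = lamZ p y w
      rw [map_mul, map_mul, Module.End.mul_apply, Module.End.mul_apply, hw u⁻¹ (Q.inv_mem hu)]
      exact hyfix y u hu
    · intro y hy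
      by_contra hcon
      apply hg
      have hyC : y ∈ Subgroup.centralizer (Q : Set G) := by
        rw [Subgroup.mem_centralizer_iff]
        intro u hu
        by_contra hne
        apply hcon
        refine ⟨u, hu, ?_⟩
        intro h
        apply hne
        have : u * y = y * u := by
          have h' := congrArg (fun t => t * u) h
          simp only [inv_mul_cancel_right] at h'
          exact h'
        exact this
      obtain ⟨c, hc⟩ := isConj_iff.1 ((hKmem y).1 hy)
      rw [← hc]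
      exact hCn.conj_mem y hyC c
  obtain ⟨N, hN⟩ := nilp_reg p Q hQ a hcl hkill
  have hdiv : ∀ h, (p : ℤ) ∣ powZ a N h := by
    intro h
    apply dvd_of_opZ_lamZ_eq_zero p
    rw [← opZ_pow]; exact hN
  have h1 := central_val_mem p M hMprime hpM ρ a hcl N hdiv
  have hsum : ∑ x : G, (a x : ℂ) * ρ.character x = (K.card : ℂ) * ρ.character g := by
    rw [ha]
    have e : ∀ x ∈ (Finset.univ : Finset G),
        (((if x ∈ K then (1 : ℤ) else 0 : ℤ)) : ℂ) * ρ.character x
        = (if x ∈ K then ρ.character g else 0) := by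
      intro x _
      by_cases hxK : x ∈ K
      · rw [if_pos hxK, if_pos hxK]
        obtain ⟨c, hc⟩ := isConj_iff.1 ((hKmem x).1 hxK)
        rw [← hc, Representation.char_conj]; simp
      · rw [if_neg hxK, if_neg hxK]; simp
    rw [Finset.sum_congr rfl e, Finset.sum_ite_mem, Finset.univ_inter, Finset.sum_const,
      nsmul_eq_mul]
  rw [hsum] at h1
  rw [← hρχ]
  exact h1

end outside


end Cfsg.Agent.Lib.Helper7
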