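import Mathlib
import Cfsg.Agent.S0941

/-!
# Central characters and normal `p`-subgroups (helper7)

* `index_dvd_h7`: for a normal `p`-subgroup `Q` and `g ∉ C_G(Q)`, the class size of `g` is `p`
  times a multiple of the class size of its image in `G ⧸ Q`.
* `ker_central_h7`, `central_mem_h7`: then the central character of every irreducible character
  at `g` lies in the local ideal.
* `sameBlock_of_regular_h7`: central characters congruent at all `p`-regular elements give the
  same block.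
-/

set_option autoImplicit false

namespace Cfsg.Agent.Lib.Helper7

open Cfsg.Agent.Lib.Lead
open scoped ComplexConjugate

theorem index_dvd_h7 {G : Type*} [Group G] [Finite G] (p : ℕ) [Fact p.Prime]
    (Q : Subgroup G) [hQn : Q.Normal] (hQ : IsPGroup p Q) (g : G)
    (hg : g ∉ Subgroup.centralizer (Q : Set G)) :
    ∃ m : ℕ, (Subgroup.centralizer ({g} : Set G)).index = p * m *
      (Subgroup.centralizer ({(QuotientGroup.mk g : G ⧸ Q)} : Set (G ⧸ Q))).index := by
  classical
  obtain ⟨K, hK⟩ : ∃ K : Subgroup G, K = (Subgroup.centralizer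
      ({(QuotientGroup.mk g : G ⧸ Q)} : Set (G ⧸ Q))).comap (QuotientGroup.mk' Q) := ⟨_, rfl⟩
  have hKmem : ∀ h : G, h ∈ K ↔ (QuotientGroup.mk g : G ⧸ Q) * QuotientGroup.mk h =
      QuotientGroup.mk h * QuotientGroup.mk g := by
    intro h
    rw [hK, Subgroup.mem_comap, Subgroup.mem_centralizer_iff]
    constructor
    · intro hh
      exact hh _ (Set.mem_singleton _)
    · intro hh q hq
      rw [Set.mem_singleton_iff] at hq
      rw [hq]
      exact hh
  have hCK : Subgroup.centralizer ({g} : Set G) ≤ K := by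
    intro h hh
    rw [hKmem]
    have h1 := Subgroup.mem_centralizer_iff.1 hh g (Set.mem_singleton g)
    rw [← QuotientGroup.mk_mul, ← QuotientGroup.mk_mul, h1]
  have hQK : Q ≤ K := by
    intro u hu
    rw [hKmem, (QuotientGroup.eq_one_iff u).2 hu, mul_one, one_mul]
  have hidx : K.index = (Subgroup.centralizer
      ({(QuotientGroup.mk g : G ⧸ Q)} : Set (G ⧸ Q))).index := by
    rw [hK]
    exact Subgroup.index_comap_of_surjective _ (QuotientGroup.mk'_surjective Q)
  have hp_dvd : p ∣ (Subgroup.centralizer ({g} : Set G)).relIndex K := by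
    have hQ' : IsPGroup p (Q.subgroupOf K) := hQ.comap_subtype
    have hmod := hQ'.card_modEq_card_fixedPoints
      (K ⧸ (Subgroup.centralizer ({g} : Set G)).subgroupOf K)
    have hfix : IsEmpty (MulAction.fixedPoints (Q.subgroupOf K)
        (K ⧸ (Subgroup.centralizer ({g} : Set G)).subgroupOf K)) := by
      constructor
      rintro ⟨x, hx⟩
      apply hg
      induction x using QuotientGroup.induction_on with
      | H k =>
        rw [Subgroup.mem_centralizer_iff]
        intro v hv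
        have huQ : (k : G) * v⁻¹ * (k : G)⁻¹ ∈ Q := hQn.conj_mem _ (Q.inv_mem hv) _
        have hu' : (⟨(k : G) * v⁻¹ * (k : G)⁻¹, hQK huQ⟩ : K) ∈ Q.subgroupOf K := by
          rw [Subgroup.mem_subgroupOf]
          exact huQ
        have h1 := hx ⟨⟨(k : G) * v⁻¹ * (k : G)⁻¹, hQK huQ⟩, hu'⟩
        have h2 : (((⟨(k : G) * v⁻¹ * (k : G)⁻¹, hQK huQ⟩ : K) * k : K) :
            K ⧸ (Subgroup.centralizer ({g} : Set G)).subgroupOf K) = (k : K ⧸ _) := h1
        rw [QuotientGroup.eq, Subgroup.mem_subgroupOf] at h2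
        have h3 : ((((⟨(k : G) * v⁻¹ * (k : G)⁻¹, hQK huQ⟩ : K) * k)⁻¹ * k : K) : G) = v := by
          show ((k : G) * v⁻¹ * (k : G)⁻¹ * (k : G))⁻¹ * (k : G) = v
          group
        rw [h3] at h2
        exact (Subgroup.mem_centralizer_iff.1 h2 g (Set.mem_singleton g)).symm
    have h0 : Nat.card (MulAction.fixedPoints (Q.subgroupOf K)
        (K ⧸ (Subgroup.centralizer ({g} : Set G)).subgroupOf K)) = 0 := Nat.card_of_isEmpty
    rw [h0] at hmod
    exact (Nat.modEq_zero_iff_dvd.1 hmod)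
  obtain ⟨m, hm⟩ := hp_dvd
  refine ⟨m, ?_⟩
  rw [← Subgroup.relIndex_mul_index hCK, hm, hidx]

theorem ker_central_h7 {G : Type*} [Group G] [Finite G] (p : ℕ) [Fact p.Prime]
    (M : Ideal Cfsg.AlgInt) (hM : Cfsg.IsPModular p M) (Q : Subgroup G) [Q.Normal]
    (hQ : IsPGroup p Q) (g : G) (hg : g ∉ Subgroup.centralizer (Q : Set G))
    (θ : Cfsg.IrrCharacter G) (hker : ∀ x ∈ Q, (θ : G → ℂ) x = (θ : G → ℂ) 1) :
    Cfsg.MemLocalIdeal M (Cfsg.centralChar (θ : G → ℂ) g) := by
  classical
  haveI : Fintype (G ⧸ Q) := Fintype.ofFinite _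
  have hMprime : M.IsPrime := hM.2.1.isPrime
  have hMtop : M ≠ ⊤ := hMprime.ne_top
  obtain ⟨θb, hθb⟩ := Cfsg.Agent.S0941.descend_aux Q θ hker
  obtain ⟨m, hm⟩ := index_dvd_h7 p Q hQ g hg
  have e : Cfsg.centralChar (θ : G → ℂ) g = ((m : ℂ) *
      Cfsg.centralChar (θb : G ⧸ Q → ℂ) (QuotientGroup.mk g : G ⧸ Q)) * (p : ℂ) := by
    unfold Cfsg.centralChar
    rw [hm, hθb]
    simp only [Function.comp]
    rw [QuotientGroup.mk_one]
    push_cast
    ring
  rw [e]
  have hmR : Cfsg.MemLocalRing M (m : ℂ) := by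
    have h1 := memLocalRing_int_h7 M hMtop (m : ℤ)
    rw [Int.cast_natCast] at h1
    exact h1
  exact memLocalIdeal_mul_ring_lead hMprime
    (memLocalRing_mul_lead hMprime hmR
      (memLocalRing_isIntegral_lead hMtop (isIntegral_centralChar_lead θb _)))
    (memLocalIdeal_p_h7 p M hM)

/-- `g` not centralizing a normal `p`-subgroup: every central character lies in the local
ideal at `g`. -/
theorem central_mem_h7 {G : Type*} [Group G] [Finite G] (p : ℕ) [Fact p.Prime]
    (M : Ideal Cfsg.AlgInt) (hM : Cfsg.IsPModular p M) (Q : Subgroup G) [Q.Normal]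
    (hQ : IsPGroup p Q) (g : G) (hg : g ∉ Subgroup.centralizer (Q : Set G))
    (χ : Cfsg.IrrCharacter G) :
    Cfsg.MemLocalIdeal M (Cfsg.centralChar (χ : G → ℂ) g) := by
  classical
  haveI : Fintype G := Fintype.ofFinite _
  have hMprime : M.IsPrime := hM.2.1.isPrime
  obtain ⟨θ, hθB, hθker⟩ := Cfsg.Agent.S0941.exists_ker_aux p M hM Q hQ
    (Cfsg.blockOf M (χ : G → ℂ)) ⟨χ, rfl⟩
  have h1 := ker_central_h7 p M hM Q hQ g hg θ hθker
  have h2 : Cfsg.SameBlock M (χ : G → ℂ) (θ : G → ℂ) := hθB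
  have h3 := memLocalIdeal_add_lead hMprime (h2 g) h1
  rwa [sub_add_cancel] at h3

/-- central characters congruent at all `p`-regular elements give the same block -/
theorem sameBlock_of_regular_h7 {G : Type*} [Group G] [Finite G] (p : ℕ) [Fact p.Prime]
    (M : Ideal Cfsg.AlgInt) (hM : Cfsg.IsPModular p M) (χ ψ : Cfsg.IrrCharacter G)
    (hreg : ∀ g : G, ¬ p ∣ orderOf g → Cfsg.MemLocalIdeal M
      (Cfsg.centralChar (χ : G → ℂ) g - Cfsg.centralChar (ψ : G → ℂ) g)) :
    Cfsg.SameBlock M (χ : G → ℂ) (ψ : G → ℂ) := by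
  classical
  haveI : Fintype G := Fintype.ofFinite _
  haveI : Fintype (Cfsg.IrrCharacter G) := Fintype.ofFinite _
  haveI : Fintype (ConjClasses G) := Fintype.ofFinite _
  have hp : p.Prime := Fact.out
  have hMprime : M.IsPrime := hM.2.1.isPrime
  have hMtop : M ≠ ⊤ := hMprime.ne_top
  have hpM : (p : Cfsg.AlgInt) ∈ M := hM.2.2
  have hone : ¬ Cfsg.MemLocalIdeal M (1 : ℂ) := by
    intro h
    have h3 := int_mem_dvd_h7 p M hM 1 (by rw [Int.cast_one]; exact h)
    have h4 : p ∣ 1 := by exact_mod_cast h3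
    exact hp.one_lt.ne' (Nat.dvd_one.1 h4)
  have hBb : Cfsg.IsPBlock M (Cfsg.blockOf M (χ : G → ℂ)) := ⟨χ, rfl⟩
  have h1 := blockCoeff_class_sum_h7 (Cfsg.blockOf M (χ : G → ℂ)) χ
  have h2 := blockCoeff_class_sum_h7 (Cfsg.blockOf M (χ : G → ℂ)) ψ
  rw [if_pos (show χ ∈ Cfsg.blockOf M (χ : G → ℂ) from sameBlock_refl_lead hMtop _)] at h1
  by_contra hnot
  rw [if_neg (show ψ ∉ Cfsg.blockOf M (χ : G → ℂ) from hnot)] at h2
  apply hone
  have h3 : ∑ c : ConjClasses G,
      Cfsg.blockCoeff (Cfsg.blockOf M (χ : G → ℂ)) (Quotient.out c) *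
      (Cfsg.centralChar (χ : G → ℂ) (Quotient.out c) -
        Cfsg.centralChar (ψ : G → ℂ) (Quotient.out c)) = 1 := by
    calc ∑ c : ConjClasses G,
        Cfsg.blockCoeff (Cfsg.blockOf M (χ : G → ℂ)) (Quotient.out c) *
        (Cfsg.centralChar (χ : G → ℂ) (Quotient.out c) -
          Cfsg.centralChar (ψ : G → ℂ) (Quotient.out c))
        = ∑ c : ConjClasses G,
            Cfsg.blockCoeff (Cfsg.blockOf M (χ : G → ℂ)) (Quotient.out c) *
            Cfsg.centralChar (χ : G → ℂ) (Quotient.out c) -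
          ∑ c : ConjClasses G,
            Cfsg.blockCoeff (Cfsg.blockOf M (χ : G → ℂ)) (Quotient.out c) *
            Cfsg.centralChar (ψ : G → ℂ) (Quotient.out c) := by
          rw [← Finset.sum_sub_distrib]
          apply Finset.sum_congr rfl
          intro c _
          ring
      _ = 1 := by rw [h1, h2, sub_zero]
  rw [← h3]
  apply memLocalIdeal_sum_lead hMprime
  intro c _
  by_cases hc : p ∣ orderOf (Quotient.out c : G)
  · rw [blockCoeff_singular_h7 p M hM _ hBb _ hc, zero_mul]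
    exact memLocalIdeal_zero_lead hMtop
  · exact memLocalIdeal_mul_ring_lead hMprime (osima_lead p hp M hMprime hpM χ _)
      (hreg _ hc)

/-- a `p`-solvable group with trivial `p'`-core has a single `p`-block -/
theorem single_block_h7 {G : Type*} [Group G] [Finite G] (p : ℕ) [Fact p.Prime]
    (M : Ideal Cfsg.AlgInt) (hM : Cfsg.IsPModular p M) (Q : Subgroup G) [Q.Normal]
    (hQ : IsPGroup p Q) (hCQ : Subgroup.centralizer (Q : Set G) ≤ Q)
    (χ ψ : Cfsg.IrrCharacter G) : Cfsg.SameBlock M (χ : G → ℂ) (ψ : G → ℂ) := by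
  have hp : p.Prime := Fact.out
  have hMprime : M.IsPrime := hM.2.1.isPrime
  have hMtop : M ≠ ⊤ := hMprime.ne_top
  apply sameBlock_of_regular_h7 p M hM
  intro g hg
  by_cases hg1 : g = 1
  · have h1 : ∀ φ : Cfsg.IrrCharacter G, Cfsg.centralChar (φ : G → ℂ) 1 = 1 := by
      intro φ
      obtain ⟨hφ1, hφ0⟩ := charDegree_irr φ.2
      have hφ0' : (φ : G → ℂ) 1 ≠ 0 := by rw [hφ1]; exact_mod_cast hφ0
      unfold Cfsg.centralChar
      have htop : Subgroup.centralizer ({(1 : G)} : Set G) = ⊤ := by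
        rw [Subgroup.centralizer_eq_top_iff_subset]
        intro x hx
        rw [Set.mem_singleton_iff] at hx
        rw [hx]
        exact (Subgroup.center G).one_mem
      rw [htop, Subgroup.index_top, Nat.cast_one, one_mul, div_self hφ0']
    rw [hg1, h1 χ, h1 ψ, sub_self]
    exact memLocalIdeal_zero_lead hMtop
  · have hgC : g ∉ Subgroup.centralizer (Q : Set G) := by
      intro hc
      have hgQ := hCQ hc
      obtain ⟨j, hj⟩ := hQ ⟨g, hgQ⟩
      have hgj : g ^ p ^ j = 1 := by
        have := congrArg Subtype.val hj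
        simpa using this
      obtain ⟨i, hi, hi2⟩ := (Nat.dvd_prime_pow hp).1 (orderOf_dvd_of_pow_eq_one hgj)
      rcases Nat.eq_zero_or_pos i with h0 | h0
      · apply hg1
        rw [h0, pow_zero, orderOf_eq_one_iff] at hi2
        exact hi2
      · apply hg
        rw [hi2]
        exact dvd_pow_self p h0.ne'
    exact memLocalIdeal_sub_lead hMprime (central_mem_h7 p M hM Q hQ g hgC χ)
      (central_mem_h7 p M hM Q hQ g hgC ψ)

end Cfsg.Agent.Lib.Helper7
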