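import Mathlib

set_option autoImplicit false

namespace Cfsg.Agent.Lib.Helper7

universe u

/-- A group of order `p ^ r` is generated by `r` elements. -/
theorem exists_generators_of_card_prime_pow (p : ℕ) [Fact p.Prime] :
    ∀ (r : ℕ) (Q : Type u) [Group Q] [Finite Q], Nat.card Q = p ^ r →
      ∃ f : Fin r → Q, Subgroup.closure (Set.range f) = ⊤ := by
  have hp : p.Prime := Fact.out
  intro r
  induction r with
  | zero =>
    intro Q _ _ h
    refine ⟨Fin.elim0, ?_⟩
    rw [pow_zero] at h
    haveI : Subsingleton Q := Finite.card_le_one_iff_subsingleton.mp h.le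
    exact Subsingleton.elim _ _
  | succ r ih =>
    intro Q _ _ h
    obtain ⟨M, hM⟩ := Sylow.exists_subgroup_card_pow_prime (G := Q) p (n := r)
      (by rw [h]; exact pow_dvd_pow p (Nat.le_succ r))
    obtain ⟨f, hf⟩ := ih M hM
    have hlt : p ^ r < p ^ (r + 1) := Nat.pow_lt_pow_right hp.one_lt (Nat.lt_succ_self r)
    have hMne : M ≠ ⊤ := by
      intro htop
      rw [htop, Subgroup.card_top, h] at hM
      omega
    obtain ⟨x, hx⟩ : ∃ x, x ∉ M := by
      by_contra hh
      push Not at hh
      exact hMne (eq_top_iff.mpr fun y _ => hh y)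
    refine ⟨Fin.snoc (fun i => (f i : Q)) x, ?_⟩
    have hMK : M ≤ Subgroup.closure
        (Set.range (Fin.snoc (fun i => (f i : Q)) x : Fin (r + 1) → Q)) := by
      have h1 : M = Subgroup.closure (Set.range (fun i => (f i : Q))) := by
        have h2 := congrArg (Subgroup.map M.subtype) hf
        rw [MonoidHom.map_closure, ← Set.range_comp, ← MonoidHom.range_eq_map,
          Subgroup.range_subtype] at h2
        exact h2.symm
      refine h1.le.trans (Subgroup.closure_mono ?_)
      rintro _ ⟨i, rfl⟩
      exact ⟨i.castSucc, by simp⟩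
    have hxK : x ∈ Subgroup.closure
        (Set.range (Fin.snoc (fun i => (f i : Q)) x : Fin (r + 1) → Q)) :=
      Subgroup.subset_closure ⟨Fin.last r, by simp⟩
    by_contra hne
    have hdvd : Nat.card (Subgroup.closure
        (Set.range (Fin.snoc (fun i => (f i : Q)) x : Fin (r + 1) → Q))) ∣ p ^ (r + 1) := by
      rw [← h]; exact Subgroup.card_subgroup_dvd_card _
    obtain ⟨j, hj, hcard⟩ := (Nat.dvd_prime_pow hp).mp hdvd
    rcases Nat.lt_or_ge j (r + 1) with hjr | hjr
    · have h3 : p ^ j ≤ p ^ r := Nat.pow_le_pow_right hp.pos (by omega)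
      have h4 : M = Subgroup.closure
          (Set.range (Fin.snoc (fun i => (f i : Q)) x : Fin (r + 1) → Q)) :=
        Subgroup.eq_of_le_of_card_ge hMK (by rw [hcard, hM]; exact h3)
      rw [← h4] at hxK
      exact hx hxK
    · have h3 : j = r + 1 := le_antisymm hj hjr
      apply hne
      apply Subgroup.eq_top_of_card_eq
      rw [hcard, h3, h]

end Cfsg.Agent.Lib.Helper7
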