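import Mathlib
import Cfsg.Prelude.Def_Characters
import Cfsg.Agent.Lib.Lead.BrauerR
import Cfsg.Agent.Lib.Lead.BrauerR2
import Cfsg.Agent.Lib.Lead.CharGal2
import Cfsg.Agent.Lib.Lead.CharInt
import Cfsg.Agent.Lib.Lead.CharRing
import Cfsg.Agent.Lib.Lead.CharOrtho
import Cfsg.Agent.Lib.Lead.CharBasic
import Cfsg.Agent.Lib.Lead.CharCount
import Cfsg.Agent.Lib.Lead.CharInd3

set_option autoImplicit false
open scoped BigOperators ComplexConjugate
open IntermediateField

namespace Cfsg.Agent.Lib.Helper7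
open Cfsg.Agent.Lib.Lead

universe u

/-- In a `q`-elementary group, the centralizer of a `p`-regular element has order divisible by
the full `p`-part of the group order. -/
theorem elem_cent {E : Type*} [Group E] [Finite E] (q p : ℕ) (hp : p.Prime) (hq : q.Prime)
    (hE : Cfsg.IsElementary q E) (y : E) (hy : ¬ p ∣ orderOf y) :
    p ^ (Nat.card E).factorization p ∣ Nat.card (Subgroup.centralizer ({y} : Set E)) := by
  obtain ⟨x, hxc, hxq, k, hk⟩ := hE
  have hZc : Subgroup.zpowers x ≤ Subgroup.center E := by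
    rw [Subgroup.zpowers_le]; exact hxc
  have hcardE : Nat.card (Subgroup.zpowers x) * q ^ k = Nat.card E := by
    rw [← hk]; exact Subgroup.card_mul_index _
  have hpE : p ^ (Nat.card E).factorization p ∣ Nat.card E := Nat.ordProj_dvd _ _
  by_cases hqp : q = p
  · subst hqp
    haveI hZn : (Subgroup.zpowers x).Normal :=
      ⟨fun n hn g => by
        have h1 := Subgroup.mem_center_iff.1 (hZc hn) g
        have h2 : g * n * g⁻¹ = n := by rw [h1, mul_inv_cancel_right]
        rw [h2]; exact hn⟩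
    have h1 : y ^ (q ^ k) ∈ Subgroup.zpowers x := by
      rw [← hk]; exact Subgroup.pow_index_mem _ y
    have hcop : Nat.Coprime (q ^ k) (orderOf y) :=
      Nat.Coprime.pow_left k ((Nat.Prime.coprime_iff_not_dvd hq).2 hy)
    obtain ⟨m, hm⟩ := exists_pow_eq_self_of_coprime hcop
    have hyZ : y ∈ Subgroup.zpowers x := by rw [← hm]; exact Subgroup.pow_mem _ h1 m
    have hyc : y ∈ Subgroup.center E := hZc hyZ
    have htop : Subgroup.centralizer ({y} : Set E) = ⊤ := by
      rw [Subgroup.centralizer_eq_top_iff_subset]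
      intro z hz
      rw [Set.mem_singleton_iff] at hz
      rw [hz]; exact hyc
    rw [htop, Subgroup.card_top]; exact hpE
  · have hdiv1 : Nat.card (Subgroup.zpowers x) ∣
        Nat.card (Subgroup.centralizer ({y} : Set E)) :=
      Subgroup.card_dvd_of_le (hZc.trans (Subgroup.center_le_centralizer _))
    have h2 : p ^ (Nat.card E).factorization p ∣ Nat.card (Subgroup.zpowers x) * q ^ k := by
      rw [hcardE]; exact hpE
    have hcop' : Nat.Coprime (p ^ (Nat.card E).factorization p) (q ^ k) :=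
      Nat.Coprime.pow _ _ ((Nat.coprime_primes hp hq).2 (Ne.symm hqp))
    exact (hcop'.dvd_of_dvd_mul_right h2).trans hdiv1

theorem cent_dvd {G : Type*} [Group G] [Finite G] (E : Subgroup G) (y : E) :
    Nat.card (Subgroup.centralizer ({y} : Set E)) ∣
      Nat.card (Subgroup.centralizer ({(y : G)} : Set G)) := by
  let f : Subgroup.centralizer ({y} : Set E) →* Subgroup.centralizer ({(y : G)} : Set G) :=
    { toFun := fun e => ⟨((e : E) : G), by
        rw [Subgroup.mem_centralizer_singleton_iff]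
        have := e.2
        rw [Subgroup.mem_centralizer_singleton_iff] at this
        have h2 := congrArg (Subtype.val : E → G) this
        simpa using h2⟩
      map_one' := rfl
      map_mul' := fun _ _ => rfl }
  have hf : Function.Injective f := by
    intro a b hab
    have h1 : ((a : E) : G) = ((b : E) : G) :=
      congrArg (fun z : Subgroup.centralizer ({(y : G)} : Set G) => (z : G)) hab
    exact Subtype.ext (Subtype.ext h1)
  exact Subgroup.card_dvd_of_injective f hf

/-- The average of `χ(x) χ(x⁻¹)` over the `p`-regular elements is rational. -/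
theorem preg_inner_rat {G : Type*} [Group G] [Fintype G] (p : ℕ) {χ : G → ℂ}
    (hχ : Cfsg.IsCharacter G χ) :
    ∃ r : ℚ, (Nat.card G : ℂ)⁻¹ *
      ∑ x : G, (if p ∣ orderOf x then 0 else χ x * χ x⁻¹) = (r : ℂ) := by
  classical
  obtain ⟨k, ρ, rfl⟩ := hχ
  have hn : Nat.card G ≠ 0 := Nat.card_pos.ne'
  choose y hy _ hyσ using fun x : G => char_galois ρ x
  obtain ⟨w, hwdef⟩ : ∃ w : ℚ⟮zetaC (Nat.card G)⟯, w =
      ((Nat.card G : ℕ) : ℚ⟮zetaC (Nat.card G)⟯)⁻¹ *
        ∑ x : G, (if p ∣ orderOf x then 0 else y x * y x⁻¹) := ⟨_, rfl⟩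
  have hw : (w : ℂ) = (Nat.card G : ℂ)⁻¹ *
      ∑ x, (if p ∣ orderOf x then 0 else ρ.character x * ρ.character x⁻¹) := by
    rw [hwdef]
    push_cast
    congr 1
    refine Finset.sum_congr rfl fun x _ => ?_
    split_ifs with h
    · rfl
    · push_cast; rw [hy x, hy x⁻¹]
  have hfix : ∀ σ : ℚ⟮zetaC (Nat.card G)⟯ →ₐ[ℚ] ℂ, σ w = (w : ℂ) := by
    intro σ
    obtain ⟨m, hm, hσ⟩ := emb_gen (Nat.card G) hn σ
    rw [hw, hwdef]
    simp only [map_mul, map_inv₀, map_natCast, map_sum]
    congr 1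
    have e1 : ∀ x : G, σ (if p ∣ orderOf x then 0 else y x * y x⁻¹) =
        if p ∣ orderOf x then 0 else ρ.character (x ^ m) * ρ.character ((x ^ m)⁻¹) := by
      intro x
      split_ifs with h
      · exact map_zero σ
      · rw [map_mul, hyσ x σ m hσ, hyσ x⁻¹ σ m hσ, inv_pow]
    rw [Finset.sum_congr rfl fun x _ => e1 x]
    rw [← Equiv.sum_comp (powCoprime hm.symm)
      (fun x => if p ∣ orderOf x then 0 else ρ.character x * ρ.character x⁻¹)]
    refine Finset.sum_congr rfl fun x _ => ?_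
    show _ = if p ∣ orderOf (x ^ m) then 0 else ρ.character (x ^ m) * ρ.character (x ^ m)⁻¹
    have ho : orderOf (x ^ m) = orderOf x :=
      Nat.Coprime.orderOf_pow (Nat.Coprime.coprime_dvd_left (orderOf_dvd_natCard x) hm.symm)
    rw [ho]
  obtain ⟨r, hr⟩ := rat_of_fixed (Nat.card G) hn w hfix
  exact ⟨r, by rw [← hw]; exact hr⟩

/-- **Brauer–Nesbitt**: an irreducible character of `p`-defect zero vanishes on the
`p`-singular elements. -/
theorem defect_zero_vanish {G : Type u} [Group G] [Fintype G] (p : ℕ) (hp : p.Prime)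
    {χ : G → ℂ} (hχ : Cfsg.IsIrrCharacter G χ) (d : ℕ) (hd : χ 1 = d)
    (hdef : p ^ (Nat.card G).factorization p ∣ d) (g : G) (hg : p ∣ orderOf g) : χ g = 0 := by
  classical
  have hχc := isCharacter_of_isIrrCharacter hχ
  have hχcl := isClassFunction_of_irr hχ
  have hG0 : Nat.card G ≠ 0 := Nat.card_pos.ne'
  have hd0 : d ≠ 0 := by
    obtain ⟨d', hd'0, hd'⟩ := irr_one hχ
    have : d = d' := by exact_mod_cast (hd.symm.trans hd')
    rw [this]; exact hd'0
  have hdC : (d : ℂ) ≠ 0 := by exact_mod_cast hd0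
  have hdG : d ∣ Nat.card G := by
    obtain ⟨k, ρ, hirr, hρ⟩ := hχ
    haveI := hirr
    have h1 := degree_dvd_card ρ
    have h2 : (Module.finrank ℂ (Fin k → ℂ) : ℂ) = d := by
      rw [← hd, ← hρ, Representation.char_one]
    have h3 : Module.finrank ℂ (Fin k → ℂ) = d := by exact_mod_cast h2
    rw [h3] at h1; exact h1
  have hω : ∀ y : G, IsIntegral ℤ
      (((Subgroup.centralizer ({y} : Set G)).index : ℂ) * χ y / (d : ℂ)) := by
    obtain ⟨k, ρ, hirr, hρ⟩ := hχ
    haveI := hirr
    intro y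
    have h1 := isIntegral_class_char ρ y
    have h2 : (Module.finrank ℂ (Fin k → ℂ) : ℂ) = d := by
      rw [← hd, ← hρ, Representation.char_one]
    rw [h2, hρ] at h1
    exact h1
  obtain ⟨n', hn'⟩ := hdG
  have hn'p : ¬ p ∣ n' := by
    intro hpn
    obtain ⟨c, hc⟩ := hpn
    obtain ⟨c', hc'⟩ := hdef
    have h1 : p ^ ((Nat.card G).factorization p + 1) ∣ d * n' :=
      ⟨c' * c, by rw [hc, hc', pow_succ]; ring⟩
    exact Nat.pow_succ_factorization_not_dvd hG0 hp (h1.trans (dvd_of_eq hn'.symm))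
  have hint : ∀ z : ℤ, IsIntegral ℤ (z : ℂ) := fun z => by
    have := isIntegral_algebraMap (R := ℤ) (A := ℂ) (x := z)
    simpa using this
  have hintN : ∀ N : ℕ, IsIntegral ℤ (N : ℂ) := fun N => by
    have := hint (N : ℤ)
    simpa using this
  have hkey : ∀ (y : G) (N : ℕ), N ∣ Nat.card (Subgroup.centralizer ({y} : Set G)) →
      IsIntegral ℤ ((n' : ℂ) * χ y / (N : ℂ)) := by
    intro y N hN
    obtain ⟨M, hM⟩ := hN
    have hcard := Subgroup.card_mul_index (Subgroup.centralizer ({y} : Set G))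
    have hN0 : (N : ℂ) ≠ 0 := by
      have : N ≠ 0 := by
        rintro rfl
        rw [zero_mul] at hM
        exact Nat.card_pos.ne' hM
      exact_mod_cast this
    have e1 : (n' : ℂ) * χ y / (N : ℂ) = (M : ℂ) *
        (((Subgroup.centralizer ({y} : Set G)).index : ℂ) * χ y / (d : ℂ)) := by
      have h1 : (d : ℂ) * n' = (N : ℂ) * M * ((Subgroup.centralizer ({y} : Set G)).index : ℂ) := by
        have : d * n' = N * M * (Subgroup.centralizer ({y} : Set G)).index := by
          rw [← hn', ← hM, hcard]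
        exact_mod_cast this
      field_simp
      linear_combination (χ y) * h1
    rw [e1]
    exact IsIntegral.mul (hintN M) (hω y)
  obtain ⟨θ, hθdef⟩ : ∃ θ : G → ℂ, θ = fun x => if p ∣ orderOf x then 0 else χ x := ⟨_, rfl⟩
  have hθa : ∀ x, θ x = if p ∣ orderOf x then 0 else χ x := fun x => by rw [hθdef]
  have hord : ∀ x h : G, orderOf (h * x * h⁻¹) = orderOf x := by
    intro x h
    have := orderOf_injective (MulAut.conj h).toMonoidHom (MulAut.conj h).injective x
    simpa using this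
  have hθcl : Cfsg.IsClassFunction G θ := by
    intro x h
    rw [hθa, hθa, hord, hχcl]
  have hE : ∀ (E : Subgroup G) (q : ℕ), q.Prime → Cfsg.IsElementary q E →
      ∀ [Fintype E] (β : E → ℂ), Cfsg.IsIrrCharacter E β →
        IsIntegral ℤ (Cfsg.classInner (fun e : E => θ e) β) := by
    intro E q hq hEl _ β hβ
    have hE0 : Nat.card E ≠ 0 := Nat.card_pos.ne'
    have hβc := isCharacter_of_isIrrCharacter hβ
    have hβint : ∀ e, IsIntegral ℤ (β e) := by
      obtain ⟨_, ρβ, hρβ⟩ := hβc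
      intro e
      rw [← hρβ]; exact isIntegral_char ρβ e
    obtain ⟨n, hn⟩ : ∃ n : ℕ, n = p ^ (Nat.card E).factorization p := ⟨_, rfl⟩
    obtain ⟨m, hm⟩ : ∃ m : ℕ, m = Nat.card E / p ^ (Nat.card E).factorization p := ⟨_, rfl⟩
    have hmn : Nat.card E = m * n := by
      rw [hm, hn, mul_comm]; exact (Nat.ordProj_mul_ordCompl_eq_self (Nat.card E) p).symm
    have hcop : m.Coprime n := by
      rw [hm, hn]
      exact Nat.Coprime.pow_right _ (Nat.coprime_ordCompl hp hE0).symm
    have hn0 : (n : ℂ) ≠ 0 := by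
      have : n ≠ 0 := by rw [hn]; exact pow_ne_zero _ hp.ne_zero
      exact_mod_cast this
    have hm0 : (m : ℂ) ≠ 0 := by
      have : m ≠ 0 := by
        rintro rfl
        rw [zero_mul] at hmn
        exact hE0 hmn
      exact_mod_cast this
    obtain ⟨c, hc0, hc1⟩ := Nat.chineseRemainder hcop 0 1
    have hmc : m ∣ c := (Nat.modEq_zero_iff_dvd).1 hc0
    obtain ⟨ϑ, hϑdef⟩ : ∃ ϑ : E → ℂ, ϑ = fun x => if p ∣ orderOf x then 0 else (n : ℂ) :=
      ⟨_, rfl⟩
    have hϑa : ∀ x, ϑ x = if p ∣ orderOf x then 0 else (n : ℂ) := fun x => by rw [hϑdef]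
    have key : ∀ x : E, IsConj (x ^ c) 1 ↔ ¬ p ∣ orderOf x := by
      intro x
      rw [isConj_one_left]
      constructor
      · intro h hpx
        have hoc : orderOf x ∣ c := orderOf_dvd_of_pow_eq_one h
        have hpc : p ∣ c := hpx.trans hoc
        have hpE : p ∣ Nat.card E := hpx.trans (orderOf_dvd_natCard x)
        have hv : (Nat.card E).factorization p ≠ 0 := by
          have := hp.factorization_pos_of_dvd hE0 hpE
          omega
        have hpn : p ∣ n := by rw [hn]; exact dvd_pow_self p hv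
        have h1p : c % p = 1 % p := hc1.of_dvd hpn
        rw [Nat.mod_eq_zero_of_dvd hpc, Nat.mod_eq_of_lt hp.one_lt] at h1p
        exact zero_ne_one h1p
      · intro hpx
        have h1 : orderOf x ∣ m * n := by rw [← hmn]; exact orderOf_dvd_natCard x
        have h2 : Nat.Coprime (orderOf x) n := by
          rw [hn]
          exact Nat.Coprime.pow_right _ ((Nat.Prime.coprime_iff_not_dvd hp).2 hpx).symm
        exact orderOf_dvd_iff_pow_eq_one.1 ((h2.dvd_of_dvd_mul_right h1).trans hmc)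
    obtain ⟨-, hϑint⟩ := theta_rgen_lead (G := E) m n c hmn hcop hmc hc1 1 ϑ
      (fun x hx => by rw [hϑa, if_neg ((key x).1 hx)])
      (fun x hx => by rw [hϑa, if_pos (by_contra fun h => hx ((key x).2 h))])
    have hψ : Cfsg.IsCharacter E (fun e : E => conj (χ (e : G)) * β e) :=
      isCharacter_mul (isCharacter_conj (isCharacter_restrict E hχc)) hβc
    have hA : IsIntegral ℤ (Cfsg.classInner ((fun e : E => χ (e : G)) * ϑ) β) := by
      rw [classInner_mul_left_lead]
      exact isIntegral_inner_char_lead hϑint hψ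
    obtain ⟨t, ht⟩ : ∃ t : ℂ, t = Cfsg.classInner (fun e : E => θ e) β := ⟨_, rfl⟩
    rw [← ht]
    have hAt : Cfsg.classInner ((fun e : E => χ (e : G)) * ϑ) β = (n : ℂ) * t := by
      have hsum : ∑ e : E, ((fun e : E => χ (e : G)) * ϑ) e * conj (β e) =
          (n : ℂ) * ∑ e : E, (fun e : E => θ e) e * conj (β e) := by
        rw [Finset.mul_sum]
        refine Finset.sum_congr rfl fun e _ => ?_
        show χ (e : G) * ϑ e * conj (β e) = (n : ℂ) * (θ (e : G) * conj (β e))
        rw [hϑa, hθa]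
        by_cases hpe : p ∣ orderOf (e : G)
        · have hpe' : p ∣ orderOf e := by rwa [Subgroup.orderOf_coe] at hpe
          rw [if_pos hpe, if_pos hpe']; ring
        · have hpe' : ¬ p ∣ orderOf e := by rwa [Subgroup.orderOf_coe] at hpe
          rw [if_neg hpe, if_neg hpe']; ring
      rw [ht]; unfold Cfsg.classInner
      rw [hsum]; ring
    have hB : IsIntegral ℤ (((n' : ℂ) * (m : ℂ)) * t) := by
      have hexp : ((n' : ℂ) * (m : ℂ)) * t = ∑ e : E,
          (if p ∣ orderOf (e : G) then 0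
            else ((n' : ℂ) * χ (e : G) / (n : ℂ)) * conj (β e)) := by
        rw [ht]; unfold Cfsg.classInner
        rw [hmn]
        push_cast
        rw [← mul_assoc, Finset.mul_sum]
        refine Finset.sum_congr rfl fun e _ => ?_
        rw [hθa]
        by_cases hpe : p ∣ orderOf (e : G)
        · rw [if_pos hpe, if_pos hpe]; ring
        · rw [if_neg hpe, if_neg hpe]
          field_simp
      rw [hexp]
      refine IsIntegral.sum _ fun e _ => ?_
      by_cases hpe : p ∣ orderOf (e : G)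
      · rw [if_pos hpe]; exact isIntegral_zero
      · rw [if_neg hpe]
        refine IsIntegral.mul ?_ ?_
        · apply hkey (e : G) n
          have hpe' : ¬ p ∣ orderOf e := by rwa [Subgroup.orderOf_coe] at hpe
          rw [hn]
          exact (elem_cent q p hp hq hEl e hpe').trans (cent_dvd E e)
        · rw [← isCharacter_inv hβc]
          exact hβint e⁻¹
    have hcopn : Nat.Coprime n (n' * m) := by
      refine Nat.Coprime.mul_right ?_ hcop.symm
      rw [hn]
      exact Nat.Coprime.pow_left _ ((Nat.Prime.coprime_iff_not_dvd hp).2 hn'p)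
    obtain ⟨u, v, huv⟩ := Nat.isCoprime_iff_coprime.2 hcopn
    have ht2 : t = (u : ℂ) * ((n : ℂ) * t) + (v : ℂ) * (((n' : ℂ) * (m : ℂ)) * t) := by
      have h1 : ((u * (n : ℤ) + v * ((n' * m : ℕ) : ℤ) : ℤ) : ℂ) = 1 := by rw [huv]; simp
      push_cast at h1
      linear_combination (-t) * h1
    rw [ht2]
    exact IsIntegral.add (IsIntegral.mul (hint u) (hAt ▸ hA)) (IsIntegral.mul (hint v) hB)
  have ha := rbrauer_lead θ hθcl hE χ hχ
  -- rationality
  obtain ⟨r, hr⟩ := preg_inner_rat p hχc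
  have hinner : Cfsg.classInner θ χ = (Nat.card G : ℂ)⁻¹ *
      ∑ x : G, (if p ∣ orderOf x then 0 else χ x * χ x⁻¹) := by
    unfold Cfsg.classInner
    congr 1
    refine Finset.sum_congr rfl fun x _ => ?_
    rw [hθa]
    split_ifs with h
    · rw [zero_mul]
    · rw [isCharacter_inv hχc]
  have har : Cfsg.classInner θ χ = (r : ℂ) := hinner.trans hr
  have hr_int : IsIntegral ℤ r := by
    have h1 : IsIntegral ℤ (algebraMap ℚ ℂ r) := by
      rw [har] at ha
      simpa using ha
    exact (isIntegral_algebraMap_iff (algebraMap ℚ ℂ).injective).1 h1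
  obtain ⟨z, hz⟩ := IsIntegrallyClosed.isIntegral_iff.mp hr_int
  have haz : Cfsg.classInner θ χ = (z : ℂ) := by
    rw [har, ← hz]; simp
  -- real sums
  have hR1 : Cfsg.classInner θ χ =
      (((∑ x : G, (if p ∣ orderOf x then 0 else ‖χ x‖ ^ 2)) / (Nat.card G : ℝ) : ℝ) : ℂ) := by
    unfold Cfsg.classInner
    push_cast
    rw [div_eq_inv_mul]
    congr 1
    refine Finset.sum_congr rfl fun x _ => ?_
    rw [hθa]
    split_ifs with h
    · rw [zero_mul]; norm_num
    · rw [Complex.mul_conj']; push_cast; rfl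
  have hR2 : (1 : ℂ) = (((∑ x : G, ‖χ x‖ ^ 2) / (Nat.card G : ℝ) : ℝ) : ℂ) := by
    rw [← classInner_irr_self hχ]
    unfold Cfsg.classInner
    push_cast
    rw [div_eq_inv_mul]
    congr 1
    refine Finset.sum_congr rfl fun x _ => ?_
    rw [Complex.mul_conj']
  have hGpos : (0 : ℝ) < (Nat.card G : ℝ) := by exact_mod_cast Nat.card_pos
  have hz1 : (z : ℝ) = (∑ x : G, (if p ∣ orderOf x then 0 else ‖χ x‖ ^ 2)) / (Nat.card G : ℝ) := by
    have h1 : ((z : ℝ) : ℂ) = (((∑ x : G, (if p ∣ orderOf x then 0 else ‖χ x‖ ^ 2)) /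
        (Nat.card G : ℝ) : ℝ) : ℂ) := by
      rw [← hR1, haz]; simp
    exact Complex.ofReal_injective h1
  have h21 : (1 : ℝ) = (∑ x : G, ‖χ x‖ ^ 2) / (Nat.card G : ℝ) := Complex.ofReal_injective (by
    rw [← hR2]; simp)
  have hle : (∑ x : G, (if p ∣ orderOf x then 0 else ‖χ x‖ ^ 2)) ≤ ∑ x : G, ‖χ x‖ ^ 2 := by
    refine Finset.sum_le_sum fun x _ => ?_
    split_ifs
    · positivity
    · exact le_refl _
  have hpos : 0 < (∑ x : G, (if p ∣ orderOf x then 0 else ‖χ x‖ ^ 2)) := by
    have h1 : (if p ∣ orderOf (1 : G) then 0 else ‖χ 1‖ ^ 2) ≤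
        ∑ x : G, (if p ∣ orderOf x then 0 else ‖χ x‖ ^ 2) :=
      Finset.single_le_sum (f := fun x : G => if p ∣ orderOf x then (0 : ℝ) else ‖χ x‖ ^ 2)
        (fun x _ => by split_ifs <;> positivity) (Finset.mem_univ 1)
    have h2 : ¬ p ∣ orderOf (1 : G) := by
      rw [orderOf_one]; exact hp.one_lt.ne' ∘ Nat.dvd_one.1
    rw [if_neg h2] at h1
    have h3 : 0 < ‖χ 1‖ ^ 2 := by
      have : χ 1 ≠ 0 := by rw [hd]; exact hdC
      positivity
    linarith
  have hzpos : (0 : ℝ) < z := by rw [hz1]; positivity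
  have hzle : (z : ℝ) ≤ 1 := by
    rw [hz1, h21]
    exact div_le_div_of_nonneg_right hle hGpos.le
  have hz_one : z = 1 := by
    have h1 : 0 < z := by exact_mod_cast hzpos
    have h2 : z ≤ 1 := by exact_mod_cast hzle
    omega
  have heq : (∑ x : G, (if p ∣ orderOf x then 0 else ‖χ x‖ ^ 2)) = ∑ x : G, ‖χ x‖ ^ 2 := by
    have h1 : (∑ x : G, (if p ∣ orderOf x then 0 else ‖χ x‖ ^ 2)) / (Nat.card G : ℝ) =
        (∑ x : G, ‖χ x‖ ^ 2) / (Nat.card G : ℝ) := by
      rw [← hz1, ← h21, hz_one]; simp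
    have hne : (Nat.card G : ℝ) ≠ 0 := hGpos.ne'
    field_simp at h1
    exact h1
  have hdiff : ∑ x : G, (‖χ x‖ ^ 2 - (if p ∣ orderOf x then 0 else ‖χ x‖ ^ 2)) = 0 := by
    rw [Finset.sum_sub_distrib, heq, sub_self]
  have hterm := (Finset.sum_eq_zero_iff_of_nonneg (fun x _ => by
    split_ifs
    · simp only [sub_zero]; positivity
    · simp)).1 hdiff g (Finset.mem_univ g)
  rw [if_pos hg, sub_zero] at hterm
  have : ‖χ g‖ = 0 := by
    rcases pow_eq_zero_iff (n := 2) (by norm_num) |>.1 hterm with h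
    exact h
  exact norm_eq_zero.1 this

end Cfsg.Agent.Lib.Helper7
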