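import Mathlib
import Cfsg.Prelude.Def_Solvable
import Cfsg.Agent.Lib.Helper7.Basic

set_option autoImplicit false

namespace Cfsg.Agent.Lib.Helper7

open scoped Pointwise

/-- If a nontrivial group `H` acts fixed-point-freely on a nontrivial group `N`, then `H` is a
Frobenius complement in the semidirect product `N ⋊ H`. -/
theorem isFrobeniusComplement_range_inr {N H : Type*} [Group N] [Group H] (φ : H →* MulAut N)
    [Nontrivial N] [Nontrivial H] (hfree : ∀ h : H, h ≠ 1 → ∀ n : N, φ h n = n → n = 1) :
    Cfsg.IsFrobeniusComplement (SemidirectProduct.inr : H →* N ⋊[φ] H).range := by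
  have hmem : ∀ y : N ⋊[φ] H, y ∈ (SemidirectProduct.inr : H →* N ⋊[φ] H).range ↔ y.left = 1 := by
    intro y
    constructor
    · rintro ⟨w, rfl⟩; rfl
    · intro h
      refine ⟨y.right, ?_⟩
      ext
      · rw [h]; rfl
      · rfl
  refine ⟨?_, ?_, ?_⟩
  · obtain ⟨h, hh⟩ := exists_ne (1 : H)
    intro hbot
    have h1 : (SemidirectProduct.inr h : N ⋊[φ] H) ∈ (SemidirectProduct.inr : H →* N ⋊[φ] H).range := ⟨h, rfl⟩
    rw [hbot, Subgroup.mem_bot] at h1
    exact hh (SemidirectProduct.inr_injective (by rw [h1, map_one]))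
  · obtain ⟨n, hn⟩ := exists_ne (1 : N)
    intro htop
    have h1 : (SemidirectProduct.inl n : N ⋊[φ] H) ∈ (SemidirectProduct.inr : H →* N ⋊[φ] H).range := by
      rw [htop]; trivial
    rw [hmem, SemidirectProduct.left_inl] at h1
    exact hn h1
  · intro g hg
    rw [eq_bot_iff]
    intro y hy
    rw [Subgroup.mem_inf, mem_conj_smul, hmem, hmem] at hy
    rw [hmem] at hg
    obtain ⟨hy1, hy2⟩ := hy
    rw [Subgroup.mem_bot]
    have e : (g⁻¹ * y * g).left = φ g.right⁻¹ (g.left⁻¹) * φ (g.right⁻¹ * y.right) g.left := by
      simp [hy1]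
    rw [e] at hy2
    have e2 : φ (g.right⁻¹ * y.right) g.left = φ g.right⁻¹ (φ y.right g.left) := by
      rw [map_mul]; rfl
    rw [e2, ← map_mul (φ g.right⁻¹)] at hy2
    have e3 : g.left⁻¹ * φ y.right g.left = 1 :=
      (φ g.right⁻¹).injective (hy2.trans (map_one _).symm)
    have e4 : φ y.right g.left = g.left := by
      have := congrArg (fun t => g.left * t) e3
      simpa using this
    by_contra hy
    have hyr : y.right ≠ 1 := fun h => hy (SemidirectProduct.ext hy1 h)
    exact hg (hfree _ hyr _ e4)

/-- The complement `inr H` is isomorphic to `H`. -/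
noncomputable def rangeInrEquiv {N H : Type*} [Group N] [Group H] (φ : H →* MulAut N) :
    (SemidirectProduct.inr : H →* N ⋊[φ] H).range ≃* H :=
  (MonoidHom.ofInjective SemidirectProduct.inr_injective).symm

/-- A distributive action gives a homomorphism into `MulAut (Multiplicative V)`. -/
noncomputable def toMulAutMultiplicative (H V : Type*) [Group H] [AddGroup V] [DistribMulAction H V] :
    H →* MulAut (Multiplicative V) :=
  (MulAutMultiplicative V).symm.toMonoidHom.comp (DistribMulAction.toAddAut H V)

theorem toMulAutMultiplicative_apply (H V : Type*) [Group H] [AddGroup V] [DistribMulAction H V]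
    (h : H) (v : Multiplicative V) :
    toMulAutMultiplicative H V h v = Multiplicative.ofAdd (h • Multiplicative.toAdd v) := rfl

/-- A finite nontrivial group acting fixed-point-freely on a finite nontrivial additive group is
(abstractly) a Frobenius complement. -/
theorem exists_frobenius_of_free_action (H V : Type) [Group H] [Finite H] [Nontrivial H]
    [AddGroup V] [Finite V] [Nontrivial V] [DistribMulAction H V]
    (hfree : ∀ h : H, h ≠ 1 → ∀ v : V, h • v = v → v = 0) :
    ∃ (L : Type) (_ : Group L) (_ : Finite L) (K : Subgroup L),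
      Cfsg.IsFrobeniusComplement K ∧ Nonempty (K ≃* H) := by
  have hfin : Finite (Multiplicative V ⋊[toMulAutMultiplicative H V] H) :=
    Finite.of_equiv _ SemidirectProduct.equivProd.symm
  refine ⟨Multiplicative V ⋊[toMulAutMultiplicative H V] H, inferInstance, hfin,
    (SemidirectProduct.inr : H →* _).range, ?_, ⟨rangeInrEquiv _⟩⟩
  apply isFrobeniusComplement_range_inr
  intro h hh v hv
  rw [toMulAutMultiplicative_apply] at hv
  have h1 : h • Multiplicative.toAdd v = Multiplicative.toAdd v := congrArg Multiplicative.toAdd hv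
  have h2 := hfree h hh _ h1
  exact congrArg Multiplicative.ofAdd h2

end Cfsg.Agent.Lib.Helper7
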