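import Mathlib
import Cfsg.Prelude.Def_Solvable
import Cfsg.Agent.Lib.Helper7.Basic
import Cfsg.Agent.Lib.Helper7.FrobSemidirect

set_option autoImplicit false

namespace Cfsg.Agent.Lib.Helper7

open scoped Pointwise

/-- Frobenius complements are preserved by group isomorphisms. -/
theorem isFrobeniusComplement_map_equiv {G G' : Type*} [Group G] [Group G'] (e : G ≃* G')
    {C : Subgroup G} (hC : Cfsg.IsFrobeniusComplement C) :
    Cfsg.IsFrobeniusComplement (C.map e.toMonoidHom) := by
  obtain ⟨h1, h2, h3⟩ := hC
  have hmem : ∀ x : G, e x ∈ C.map e.toMonoidHom ↔ x ∈ C := by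
    intro x
    constructor
    · rintro ⟨c, hc, hcx⟩
      have : c = x := e.injective hcx
      rw [← this]; exact hc
    · intro hx; exact ⟨x, hx, rfl⟩
  refine ⟨?_, ?_, ?_⟩
  · intro hbot
    apply h1
    rw [eq_bot_iff]
    intro x hx
    have : e x ∈ C.map e.toMonoidHom := (hmem x).mpr hx
    rw [hbot, Subgroup.mem_bot] at this
    rw [Subgroup.mem_bot]
    exact e.injective (this.trans (map_one e).symm)
  · intro htop
    apply h2
    rw [eq_top_iff]
    intro x _
    rw [← hmem, htop]; trivial
  · intro g' hg'
    obtain ⟨g, rfl⟩ := e.surjective g'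
    rw [hmem] at hg'
    rw [eq_bot_iff]
    intro y hy
    obtain ⟨x, rfl⟩ := e.surjective y
    rw [Subgroup.mem_inf, mem_conj_smul, hmem] at hy
    obtain ⟨hx, hx2⟩ := hy
    have hx3 : g⁻¹ * x * g ∈ C := by
      rw [← hmem]
      simpa using hx2
    have : x ∈ C ⊓ (MulAut.conj g • C) := by
      rw [Subgroup.mem_inf, mem_conj_smul]; exact ⟨hx, hx3⟩
    rw [h3 g hg', Subgroup.mem_bot] at this
    rw [Subgroup.mem_bot, this, map_one]

/-- A Frobenius complement in a finite group of any universe can be realised in `Type`. -/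
theorem exists_small_frobenius {G : Type*} [Group G] [Finite G] {C : Subgroup G}
    (hC : Cfsg.IsFrobeniusComplement C) :
    ∃ (L : Type) (_ : Group L) (_ : Finite L) (C' : Subgroup L),
      Cfsg.IsFrobeniusComplement C' ∧ Nonempty (C ≃* C') := by
  classical
  haveI : Small.{0} G := Countable.toSmall G
  let me : G ≃* Shrink.{0} G := (Shrink.mulEquiv (α := G)).symm
  haveI : Finite (Shrink.{0} G) := Finite.of_equiv G me.toEquiv
  exact ⟨Shrink.{0} G, inferInstance, inferInstance, C.map me.toMonoidHom,
    isFrobeniusComplement_map_equiv me hC, ⟨C.equivMapOfInjective me.toMonoidHom me.injective⟩⟩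

/-- A finite nontrivial group acting fixed-point-freely on a finite nontrivial additive group is
(abstractly) a Frobenius complement; universe-polymorphic version. -/
theorem exists_frobenius_of_free_action' {H V : Type*} [Group H] [Finite H] [Nontrivial H]
    [AddGroup V] [Finite V] [Nontrivial V] [DistribMulAction H V]
    (hfree : ∀ h : H, h ≠ 1 → ∀ v : V, h • v = v → v = 0) :
    ∃ (L : Type) (_ : Group L) (_ : Finite L) (K : Subgroup L),
      Cfsg.IsFrobeniusComplement K ∧ Nonempty (H ≃* K) := by
  haveI hfin : Finite (Multiplicative V ⋊[toMulAutMultiplicative H V] H) :=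
    Finite.of_equiv _ SemidirectProduct.equivProd.symm
  have hC : Cfsg.IsFrobeniusComplement
      (SemidirectProduct.inr : H →* Multiplicative V ⋊[toMulAutMultiplicative H V] H).range := by
    apply isFrobeniusComplement_range_inr
    intro h hh v hv
    rw [toMulAutMultiplicative_apply] at hv
    have h1 : h • Multiplicative.toAdd v = Multiplicative.toAdd v :=
      congrArg Multiplicative.toAdd hv
    have h2 := hfree h hh _ h1
    exact congrArg Multiplicative.ofAdd h2
  obtain ⟨L, iG, iF, C', hC', ⟨e⟩⟩ := exists_small_frobenius hC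
  exact ⟨L, iG, iF, C', hC', ⟨(rangeInrEquiv _).symm.trans e⟩⟩

end Cfsg.Agent.Lib.Helper7
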