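import Mathlib
import Cfsg.Agent.Lib.Helper7.DefZero
import Cfsg.Agent.Lib.Helper8.CharPermFS
import Cfsg.Agent.Lib.Lead.CharNormal
import Cfsg.Agent.Lib.Lead.CharBurnside

set_option autoImplicit false
open scoped BigOperators ComplexConjugate

namespace Cfsg.Agent.Lib.Helper7
open Cfsg.Agent.Lib.Lead

universe u

/-- A character whose degree is divisible by the full `2`-part of `|G|` and by the full
`p`-part for every odd `p` with an element of order `2p`: one class of involutions, whose
centralizers are Hall subgroups of order `χ(1)`, and Frobenius–Schur indicator `1`. -/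
theorem inv_hall {G : Type u} [Group G] [Fintype G] (heven : Even (Nat.card G)) {χ : G → ℂ}
    (hχ : Cfsg.IsIrrCharacter G χ) (x : ℕ) (hx : χ 1 = x)
    (h2 : 2 ^ (Nat.card G).factorization 2 ∣ x)
    (hp : ∀ p : ℕ, p.Prime → p ≠ 2 → (∃ g : G, orderOf g = 2 * p) →
      p ^ (Nat.card G).factorization p ∣ x) :
    (∀ s t : G, orderOf s = 2 → orderOf t = 2 → IsConj s t) ∧
    (∀ s : G, orderOf s = 2 → Nat.card (Subgroup.centralizer ({s} : Set G)) = x ∧
        (Nat.card (Subgroup.centralizer ({s} : Set G))).Coprime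
          (Subgroup.centralizer ({s} : Set G)).index) ∧
    (Nat.card G : ℂ)⁻¹ * ∑ g : G, χ (g * g) = 1 := by
  classical
  have hχc := isCharacter_of_isIrrCharacter hχ
  have hG0 : Nat.card G ≠ 0 := Nat.card_pos.ne'
  have h2G : 2 ∣ Nat.card G := even_iff_two_dvd.1 heven
  have hx0 : x ≠ 0 := by
    obtain ⟨d', hd'0, hd'⟩ := irr_one hχ
    have : x = d' := by exact_mod_cast (hx.symm.trans hd')
    rw [this]; exact hd'0
  have hV2 : ∀ g : G, 2 ∣ orderOf g → χ g = 0 :=
    fun g hg => defect_zero_vanish 2 Nat.prime_two hχ x hx h2 g hg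
  have hVp : ∀ p : ℕ, p.Prime → p ≠ 2 → (∃ g : G, orderOf g = 2 * p) →
      ∀ g : G, p ∣ orderOf g → χ g = 0 :=
    fun p hpp hp2 hex g hg => defect_zero_vanish p hpp hχ x hx (hp p hpp hp2 hex) g hg
  have hord0 : ∀ g : G, orderOf g ≠ 0 := fun g => (orderOf_pos g).ne'
  have hord : ∀ y h : G, orderOf (h * y * h⁻¹) = orderOf y := by
    intro y h
    have := orderOf_injective (MulAut.conj h).toMonoidHom (MulAut.conj h).injective y
    simpa using this
  have hxeven : 2 ∣ x := by
    have hv : (Nat.card G).factorization 2 ≠ 0 := by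
      have := Nat.prime_two.factorization_pos_of_dvd hG0 h2G
      omega
    exact (dvd_pow_self 2 hv).trans h2
  have hC : ∀ t : G, orderOf t = 2 → ∀ c : G, c ∈ Subgroup.centralizer ({t} : Set G) →
      c ≠ 1 → χ c = 0 := by
    intro t ht c hc hc1
    by_cases h2c : 2 ∣ orderOf c
    · exact hV2 c h2c
    · have hne1 : orderOf c ≠ 1 := fun h => hc1 (orderOf_eq_one_iff.1 h)
      obtain ⟨p, hpp, hpc⟩ := Nat.exists_prime_and_dvd hne1
      have hp2 : p ≠ 2 := fun h => h2c (h ▸ hpc)
      have hcomm : Commute t c := by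
        rw [Subgroup.mem_centralizer_singleton_iff] at hc
        exact hc.symm
      have ho : orderOf (c ^ (orderOf c / p)) = p := orderOf_pow_orderOf_div (hord0 c) hpc
      have ho2 : orderOf (t * c ^ (orderOf c / p)) = 2 * p := by
        rw [(hcomm.pow_right _).orderOf_mul_eq_mul_orderOf_of_coprime
          (by rw [ht, ho]; exact (Nat.coprime_primes Nat.prime_two hpp).2 (Ne.symm hp2)), ht, ho]
      exact hVp p hpp hp2 ⟨_, ho2⟩ c hpc
  have hD : ∀ t : G, orderOf t = 2 → Nat.card (Subgroup.centralizer ({t} : Set G)) ∣ x := by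
    intro t ht
    obtain ⟨k, hk⟩ := card_dvd_degree_of_vanish (Subgroup.centralizer ({t} : Set G)) χ hχc
      (hC t ht)
    rw [hx] at hk
    exact ⟨k, by exact_mod_cast hk⟩
  have hR : ∀ g : G, 2 ∣ orderOf g → orderOf g ≠ 2 → χ (g * g) = 0 := by
    intro g hg2 hgne
    have hdiv : orderOf g ∣ 2 * orderOf (g * g) := by
      apply orderOf_dvd_of_pow_eq_one
      rw [pow_mul, pow_two, pow_orderOf_eq_one]
    by_cases h4 : 4 ∣ orderOf g
    · apply hV2
      obtain ⟨c, hc⟩ := h4.trans hdiv
      exact ⟨c, by omega⟩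
    · obtain ⟨m, hm⟩ := hg2
      have hmodd : ¬ 2 ∣ m := by
        intro h
        apply h4
        obtain ⟨c, hc⟩ := h
        exact ⟨c, by omega⟩
      have hm1 : m ≠ 1 := by
        rintro rfl
        exact hgne (by rw [hm])
      obtain ⟨p, hpp, hpm⟩ := Nat.exists_prime_and_dvd hm1
      have hp2 : p ≠ 2 := fun h => hmodd (h ▸ hpm)
      have h2p : 2 * p ∣ orderOf g := by rw [hm]; exact Nat.mul_dvd_mul_left 2 hpm
      have hex : ∃ g' : G, orderOf g' = 2 * p := ⟨_, orderOf_pow_orderOf_div (hord0 g) h2p⟩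
      apply hVp p hpp hp2 hex
      have h1 : p ∣ 2 * orderOf (g * g) := (dvd_mul_left p 2).trans (h2p.trans hdiv)
      rcases (Nat.Prime.dvd_mul hpp).1 h1 with h | h
      · exact absurd ((Nat.prime_dvd_prime_iff_eq hpp Nat.prime_two).1 h) hp2
      · exact h
  have hχne : χ ≠ fun _ => 1 := by
    intro h
    have h1 : (x : ℂ) = 1 := by rw [← hx, h]
    have h2' : x = 1 := by exact_mod_cast h1
    rw [h2'] at hxeven
    omega
  have hsum0 : ∑ g : G, χ g = 0 := by
    have h1 := classInner_irr hχ (isIrrCharacter_one G)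
    rw [if_neg hχne] at h1
    unfold Cfsg.classInner at h1
    have hG : (Nat.card G : ℂ) ≠ 0 := by exact_mod_cast hG0
    have h3 : ∑ g : G, χ g * conj ((fun _ : G => (1 : ℂ)) g) = 0 := by
      rcases mul_eq_zero.1 h1 with h | h
      · exact absurd (inv_eq_zero.1 h) hG
      · exact h
    simpa using h3
  have hoddsum : ∑ g : G, (if Odd (orderOf g) then χ (g * g) else 0) = 0 := by
    have e1 : ∑ g : G, (if Odd (orderOf g) then χ (g * g) else 0) =
        ∑ g : G, (if Odd (orderOf g) then χ g else 0) := by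
      rw [← Finset.sum_filter, ← Finset.sum_filter]
      refine Finset.sum_nbij' (fun g => g * g) (fun g => g ^ ((orderOf g + 1) / 2))
        ?_ ?_ ?_ ?_ ?_
      · intro g hg
        rw [Finset.mem_filter] at hg ⊢
        refine ⟨Finset.mem_univ _, ?_⟩
        have : orderOf (g * g) ∣ orderOf g := by rw [← pow_two]; exact orderOf_pow_dvd 2
        exact Odd.of_dvd_nat hg.2 this
      · intro g hg
        rw [Finset.mem_filter] at hg ⊢
        exact ⟨Finset.mem_univ _, Odd.of_dvd_nat hg.2 (orderOf_pow_dvd _)⟩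
      · intro g hg
        rw [Finset.mem_filter] at hg
        have ho : orderOf (g * g) = orderOf g := by
          rw [← pow_two]
          exact Nat.Coprime.orderOf_pow (Nat.coprime_two_right.2 hg.2)
        show (g * g) ^ ((orderOf (g * g) + 1) / 2) = g
        rw [ho, ← pow_two, ← pow_mul]
        obtain ⟨c, hc⟩ := hg.2
        have : 2 * ((orderOf g + 1) / 2) = orderOf g + 1 := by omega
        rw [this, pow_succ, pow_orderOf_eq_one, one_mul]
      · intro g hg
        rw [Finset.mem_filter] at hg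
        show g ^ ((orderOf g + 1) / 2) * g ^ ((orderOf g + 1) / 2) = g
        obtain ⟨c, hc⟩ := hg.2
        rw [← pow_add]
        have : (orderOf g + 1) / 2 + (orderOf g + 1) / 2 = orderOf g + 1 := by omega
        rw [this, pow_succ, pow_orderOf_eq_one, one_mul]
      · intro g _; rfl
    rw [e1]
    refine (Finset.sum_congr rfl fun g _ => ?_).trans hsum0
    by_cases ho : Odd (orderOf g)
    · rw [if_pos ho]
    · rw [if_neg ho]
      exact (hV2 g (even_iff_two_dvd.1 (Nat.not_odd_iff_even.1 ho))).symm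
  obtain ⟨I, hI⟩ : ∃ I : ℕ,
      I = ((Finset.univ : Finset G).filter (fun g => orderOf g = 2)).card := ⟨_, rfl⟩
  have hFS : ∑ g : G, χ (g * g) = (I : ℂ) * x := by
    have e1 : ∀ g : G, χ (g * g) = (if orderOf g = 2 then (x : ℂ) else 0) +
        (if Odd (orderOf g) then χ (g * g) else 0) := by
      intro g
      by_cases h2o : orderOf g = 2
      · have hno : ¬ Odd (orderOf g) := by rw [h2o]; decide
        rw [if_pos h2o, if_neg hno, add_zero]
        have : g * g = 1 := by rw [← pow_two, ← h2o, pow_orderOf_eq_one]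
        rw [this, hx]
      · by_cases ho : Odd (orderOf g)
        · rw [if_neg h2o, if_pos ho, zero_add]
        · rw [if_neg h2o, if_neg ho, add_zero]
          exact hR g (even_iff_two_dvd.1 (Nat.not_odd_iff_even.1 ho)) h2o
    rw [Finset.sum_congr rfl fun g _ => e1 g, Finset.sum_add_distrib, hoddsum, add_zero,
      ← Finset.sum_filter, Finset.sum_const, nsmul_eq_mul, ← hI]
  obtain ⟨z, hz, hz1, -⟩ := Cfsg.Agent.Lib.Helper8.fs_irr (⟨χ, hχ⟩ : Cfsg.IrrCharacter G)
  have hz' : (Nat.card G : ℂ)⁻¹ * ∑ g : G, χ (g * g) = (z : ℂ) := hz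
  have hGC : (Nat.card G : ℂ) ≠ 0 := by exact_mod_cast hG0
  have hIx : ((I * x : ℕ) : ℤ) = z * (Nat.card G : ℤ) := by
    have h1 : ((I : ℂ) * x) = (z : ℂ) * (Nat.card G : ℂ) := by
      rw [← hFS, ← hz']; field_simp
    exact_mod_cast h1
  haveI : Fact (Nat.Prime 2) := ⟨Nat.prime_two⟩
  obtain ⟨t₀, ht₀⟩ := exists_prime_orderOf_dvd_card' (G := G) 2 h2G
  have hIpos : 0 < I := by
    rw [hI]
    exact Finset.card_pos.2 ⟨t₀, by rw [Finset.mem_filter]; exact ⟨Finset.mem_univ _, ht₀⟩⟩
  have hz_one : z = 1 := by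
    have h1 : (0 : ℤ) < ((I * x : ℕ) : ℤ) := by
      exact_mod_cast Nat.mul_pos hIpos (Nat.pos_of_ne_zero hx0)
    rw [hIx] at h1
    have h2' : (0 : ℤ) < (Nat.card G : ℤ) := by exact_mod_cast Nat.card_pos
    have h3 : 0 < z := (mul_pos_iff_of_pos_right h2').1 h1
    omega
  have hIxG : I * x = Nat.card G := by
    rw [hz_one, one_mul] at hIx
    exact_mod_cast hIx
  have hidx : ∀ t : G, orderOf t = 2 → (Subgroup.centralizer ({t} : Set G)).index ≤ I := by
    intro t ht
    rw [← card_class_eq_index, Nat.card_eq_fintype_card, Fintype.card_subtype, hI]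
    apply Finset.card_le_card
    intro g hg
    rw [Finset.mem_filter] at hg ⊢
    refine ⟨Finset.mem_univ _, ?_⟩
    obtain ⟨c, hc⟩ := isConj_iff.1 hg.2
    rw [← ht, ← hc]; exact (hord g c).symm
  have hcard : ∀ t : G, orderOf t = 2 →
      Nat.card (Subgroup.centralizer ({t} : Set G)) = x ∧
        (Subgroup.centralizer ({t} : Set G)).index = I := by
    intro t ht
    have h1 := Subgroup.card_mul_index (Subgroup.centralizer ({t} : Set G))
    obtain ⟨k, hk⟩ := hD t ht
    have hCpos : 0 < Nat.card (Subgroup.centralizer ({t} : Set G)) := Nat.card_pos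
    have hle := hidx t ht
    have h2' : (Subgroup.centralizer ({t} : Set G)).index = I * k := by
      have : Nat.card (Subgroup.centralizer ({t} : Set G)) *
          (Subgroup.centralizer ({t} : Set G)).index =
          Nat.card (Subgroup.centralizer ({t} : Set G)) * (I * k) := by
        rw [h1, ← hIxG, hk]; ring
      exact Nat.eq_of_mul_eq_mul_left hCpos this
    have hk1 : k = 1 := by
      have hkpos : 0 < k := by
        rcases Nat.eq_zero_or_pos k with h | h
        · rw [h, mul_zero] at hk; exact absurd hk hx0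
        · exact h
      rw [h2'] at hle
      have h3 : I * k ≤ I * 1 := by rw [mul_one]; exact hle
      have := Nat.le_of_mul_le_mul_left h3 hIpos
      omega
    rw [hk1, mul_one] at hk h2'
    exact ⟨hk.symm, h2'⟩
  refine ⟨?_, ?_, ?_⟩
  · intro s t hs ht
    have hsub : (Finset.univ : Finset G).filter (fun g => IsConj g t) ⊆
        (Finset.univ : Finset G).filter (fun g => orderOf g = 2) := by
      intro g hg
      rw [Finset.mem_filter] at hg ⊢
      refine ⟨Finset.mem_univ _, ?_⟩
      obtain ⟨c, hc⟩ := isConj_iff.1 hg.2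
      rw [← ht, ← hc]; exact (hord g c).symm
    have hcardeq : ((Finset.univ : Finset G).filter (fun g => orderOf g = 2)).card ≤
        ((Finset.univ : Finset G).filter (fun g => IsConj g t)).card := by
      rw [← hI, ← (hcard t ht).2, ← card_class_eq_index, Nat.card_eq_fintype_card,
        Fintype.card_subtype]
    have heq := Finset.eq_of_subset_of_card_le hsub hcardeq
    have hs' : s ∈ (Finset.univ : Finset G).filter (fun g => orderOf g = 2) := by
      rw [Finset.mem_filter]; exact ⟨Finset.mem_univ _, hs⟩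
    rw [← heq, Finset.mem_filter] at hs'
    exact hs'.2
  · intro s hs
    obtain ⟨h1, h2'⟩ := hcard s hs
    refine ⟨h1, ?_⟩
    rw [h1, h2']
    apply Nat.coprime_of_dvd
    intro p hpp hpx hpI
    by_cases hp2 : p = 2
    · subst hp2
      obtain ⟨c, hc⟩ := hpI
      obtain ⟨c', hc'⟩ := h2
      have h3 : 2 ^ ((Nat.card G).factorization 2 + 1) ∣ I * x :=
        ⟨c * c', by rw [hc, hc', pow_succ]; ring⟩
      exact Nat.pow_succ_factorization_not_dvd hG0 Nat.prime_two (h3.trans (dvd_of_eq hIxG))
    · haveI : Fact p.Prime := ⟨hpp⟩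
      have hpC : p ∣ Nat.card (Subgroup.centralizer ({s} : Set G)) := by rw [h1]; exact hpx
      obtain ⟨c, hc⟩ := exists_prime_orderOf_dvd_card' p hpC
      have hco : orderOf (c : G) = p := by rw [Subgroup.orderOf_coe]; exact hc
      have hcomm : Commute s (c : G) := by
        have := c.2
        rw [Subgroup.mem_centralizer_singleton_iff] at this
        exact this.symm
      have ho2 : orderOf (s * (c : G)) = 2 * p := by
        rw [hcomm.orderOf_mul_eq_mul_orderOf_of_coprime
          (by rw [hs, hco]; exact (Nat.coprime_primes Nat.prime_two hpp).2 (Ne.symm hp2)),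
          hs, hco]
      obtain ⟨c', hc'⟩ := hp p hpp hp2 ⟨_, ho2⟩
      obtain ⟨c'', hc''⟩ := hpI
      have h3 : p ^ ((Nat.card G).factorization p + 1) ∣ I * x :=
        ⟨c'' * c', by rw [hc'', hc', pow_succ]; ring⟩
      exact Nat.pow_succ_factorization_not_dvd hG0 hpp (h3.trans (dvd_of_eq hIxG))
  · rw [hz', hz_one]; simp

end Cfsg.Agent.Lib.Helper7
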