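import Mathlib
import Cfsg.Agent.Lib.Helper7.SylowAux

/-!
Groups containing an element `x` of prime order `p` with `C_G(x) = ⟨x⟩`.
-/

namespace Cfsg.Agent.Lib.Helper7

variable {G : Type*} [Group G]

/-- In a cyclic group of prime order generated by `x`, a nontrivial element generates `x`. -/
theorem mem_zpowers_of_mem_zpowers_prime {p : ℕ} (hp : p.Prime) {x z : G} (hx : orderOf x = p)
    (hz : z ∈ Subgroup.zpowers x) (hz1 : z ≠ 1) : x ∈ Subgroup.zpowers z := by
  haveI := Fact.mk hp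
  have hcard : Nat.card (Subgroup.zpowers x) = p := by rw [Nat.card_zpowers, hx]
  have h1 : Subgroup.zpowers (⟨z, hz⟩ : Subgroup.zpowers x) = ⊤ :=
    zpowers_eq_top_of_prime_card hcard (fun h => hz1 (by simpa using congrArg Subtype.val h))
  have h2 : (⟨x, Subgroup.mem_zpowers x⟩ : Subgroup.zpowers x) ∈
      Subgroup.zpowers (⟨z, hz⟩ : Subgroup.zpowers x) := by
    rw [h1]; trivial
  obtain ⟨k, hk⟩ := Subgroup.mem_zpowers_iff.mp h2
  refine Subgroup.mem_zpowers_iff.mpr ⟨k, ?_⟩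
  simpa using congrArg Subtype.val hk

/-- Anything commuting with a nontrivial element of `⟨x⟩` lies in `⟨x⟩`. -/
theorem selfCent_mem {p : ℕ} (hp : p.Prime) {x : G} (hx : orderOf x = p)
    (hC : Subgroup.centralizer ({x} : Set G) = Subgroup.zpowers x) {y m : G}
    (hy : y ∈ Subgroup.zpowers x) (hy1 : y ≠ 1) (hm : m * y = y * m) :
    m ∈ Subgroup.zpowers x := by
  obtain ⟨k, hk⟩ := Subgroup.mem_zpowers_iff.mp (mem_zpowers_of_mem_zpowers_prime hp hx hy hy1)
  rw [← hC, Subgroup.mem_centralizer_iff]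
  intro g hg
  rw [Set.mem_singleton_iff.mp hg, ← hk]
  exact ((Commute.zpow_right (show Commute m y from hm) k).eq).symm

theorem selfCent_orderOf {p : ℕ} (hp : p.Prime) {x : G} (hx : orderOf x = p) {y : G}
    (hy : y ∈ Subgroup.zpowers x) (hy1 : y ≠ 1) : orderOf y = p := by
  have hcard : Nat.card (Subgroup.zpowers x) = p := by rw [Nat.card_zpowers, hx]
  have h1 : orderOf y ∣ p := by
    rw [← hcard]
    haveI : Finite (Subgroup.zpowers x) := Nat.finite_of_card_ne_zero (by rw [hcard]; exact hp.ne_zero)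
    exact Subgroup.orderOf_dvd_natCard _ hy
  rcases (Nat.dvd_prime hp).mp h1 with h | h
  · exact absurd (orderOf_eq_one_iff.mp h) hy1
  · exact h

variable [Finite G]

/-- `⟨x⟩` is a Sylow `p`-subgroup. -/
theorem selfCent_sylow {p : ℕ} (hp : p.Prime) (x : G) (hx : orderOf x = p)
    (hC : Subgroup.centralizer ({x} : Set G) = Subgroup.zpowers x) :
    ∃ P : Sylow p G, (P : Subgroup G) = Subgroup.zpowers x := by
  haveI := Fact.mk hp
  have hpg : IsPGroup p (Subgroup.zpowers x) := by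
    rw [IsPGroup.iff_card]
    exact ⟨1, by rw [Nat.card_zpowers, hx, pow_one]⟩
  obtain ⟨S, hS⟩ := hpg.exists_le_sylow
  refine ⟨S, le_antisymm ?_ hS⟩
  have hx1 : x ≠ 1 := by
    intro h; rw [h, orderOf_one] at hx; exact hp.one_lt.ne' hx.symm
  haveI : Nontrivial (S : Subgroup G) :=
    ⟨⟨⟨x, hS (Subgroup.mem_zpowers x)⟩, 1, fun h => hx1 (by simpa using congrArg Subtype.val h)⟩⟩
  haveI := IsPGroup.center_nontrivial S.isPGroup'
  obtain ⟨z, hz⟩ := exists_ne (1 : Subgroup.center (S : Subgroup G))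
  have hzc : ∀ s : (S : Subgroup G), s * (z : (S : Subgroup G)) = (z : (S : Subgroup G)) * s :=
    fun s => (Subgroup.mem_center_iff.mp z.2 s)
  have hz'1 : ((z : (S : Subgroup G)) : G) ≠ 1 := by
    intro h
    apply hz
    apply Subtype.ext
    apply Subtype.ext
    simpa using h
  have hzx : ((z : (S : Subgroup G)) : G) ∈ Subgroup.zpowers x := by
    rw [← hC, Subgroup.mem_centralizer_iff]
    intro g hg
    rw [Set.mem_singleton_iff.mp hg]
    have := hzc ⟨x, hS (Subgroup.mem_zpowers x)⟩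
    exact congrArg Subtype.val this
  intro s hs
  have := hzc ⟨s, hs⟩
  exact selfCent_mem hp hx hC hzx hz'1 (congrArg Subtype.val this)

/-- The number `t` of classes of elements of order `p` times `|N(P):P|` is `p - 1`. -/
theorem selfCent_count {p : ℕ} (hp : p.Prime) (x : G) (hx : orderOf x = p)
    (hC : Subgroup.centralizer ({x} : Set G) = Subgroup.zpowers x) :
    Nat.card {C : ConjClasses G // ∃ g ∈ C.carrier, orderOf g = p} *
      (Subgroup.zpowers x).relIndex
        (Subgroup.normalizer ((Subgroup.zpowers x : Subgroup G) : Set G)) = p - 1 := by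
  classical
  haveI := Fact.mk hp
  obtain ⟨P, hP⟩ := selfCent_sylow hp x hx hC
  have hcard : Nat.card (Subgroup.zpowers x) = p := by rw [Nat.card_zpowers, hx]
  have hY : Nat.card {y : G // y ∈ Subgroup.zpowers x ∧ y ≠ 1} = p - 1 := by
    have h1 : Nat.card {y : G // y ∈ Subgroup.zpowers x ∧ y ≠ 1} =
        (((Subgroup.zpowers x : Subgroup G) : Set G) \ {1}).ncard := by
      rw [← Nat.card_coe_set_eq]
      exact Nat.card_congr (Equiv.subtypeEquivRight (fun y => by simp))
    have h2 : ((Subgroup.zpowers x : Subgroup G) : Set G).ncard = p := by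
      rw [← Nat.card_coe_set_eq]; exact hcard
    rw [h1, Set.ncard_sdiff_singleton_of_mem (Subgroup.one_mem _), h2]
  have hcomm : ∀ a ∈ Subgroup.zpowers x, ∀ b ∈ Subgroup.zpowers x, a * b = b * a := by
    intro a ha b hb
    obtain ⟨i, rfl⟩ := Subgroup.mem_zpowers_iff.mp ha
    obtain ⟨j, rfl⟩ := Subgroup.mem_zpowers_iff.mp hb
    exact (zpow_mul_comm x i j)
  -- representatives
  have hrep : ∀ C : {C : ConjClasses G // ∃ g ∈ C.carrier, orderOf g = p},
      ∃ y : G, y ∈ Subgroup.zpowers x ∧ ConjClasses.mk y = C.1 ∧ y ≠ 1 := by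
    intro C
    obtain ⟨g, hgC, hg⟩ := C.2
    obtain ⟨Q, hQ⟩ := exists_mem_sylow_of_orderOf (p := p) g ⟨1, by rw [hg, pow_one]⟩
    obtain ⟨h, hh⟩ := MulAction.exists_smul_eq G Q P
    refine ⟨h * g * h⁻¹, ?_, ?_, ?_⟩
    · rw [← hP]
      have : h * g * h⁻¹ ∈ h • Q := by
        rw [mem_sylow_smul_iff]
        simpa [mul_assoc] using hQ
      rw [hh] at this
      exact this
    · rw [← ConjClasses.mem_carrier_iff_mk_eq.mp hgC, ConjClasses.mk_eq_mk_iff_isConj, isConj_iff]
      exact ⟨h⁻¹, by group⟩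
    · intro h1
      have h2 : orderOf (h * g * h⁻¹) = p := by rw [orderOf_conj_eq, hg]
      rw [h1, orderOf_one] at h2
      exact hp.one_lt.ne' h2.symm
  choose yC hyP hyC hy1 using hrep
  set N : Subgroup G := Subgroup.normalizer ((Subgroup.zpowers x : Subgroup G) : Set G) with hN
  have hnorm : ∀ n ∈ N, ∀ y ∈ Subgroup.zpowers x, n * y * n⁻¹ ∈ Subgroup.zpowers x :=
    fun n hn y hy => (Subgroup.mem_normalizer_iff.mp hn y).mp hy
  let φ : {C : ConjClasses G // ∃ g ∈ C.carrier, orderOf g = p} ×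
      (N ⧸ (Subgroup.zpowers x).subgroupOf N) → {y : G // y ∈ Subgroup.zpowers x ∧ y ≠ 1} :=
    fun a => ⟨((a.2.out : N) : G) * yC a.1 * ((a.2.out : N) : G)⁻¹,
      hnorm _ (a.2.out : N).2 _ (hyP a.1), fun h => hy1 a.1 (by
        have h3 : yC a.1 = ((a.2.out : N) : G)⁻¹ * (((a.2.out : N) : G) * yC a.1 * ((a.2.out : N) : G)⁻¹) * ((a.2.out : N) : G) := by group
        rw [h3, h]; group)⟩
  have hφ : Function.Bijective φ := by
    constructor
    · rintro ⟨C, q⟩ ⟨C', q'⟩ h
      have h1 : ((q.out : N) : G) * yC C * ((q.out : N) : G)⁻¹ =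
          ((q'.out : N) : G) * yC C' * ((q'.out : N) : G)⁻¹ := congrArg Subtype.val h
      have hCC : C = C' := by
        apply Subtype.ext
        rw [← hyC C, ← hyC C', ConjClasses.mk_eq_mk_iff_isConj, isConj_iff]
        refine ⟨((q'.out : N) : G)⁻¹ * ((q.out : N) : G), ?_⟩
        have : yC C' = ((q'.out : N) : G)⁻¹ * (((q'.out : N) : G) * yC C' * ((q'.out : N) : G)⁻¹) * ((q'.out : N) : G) := by group
        rw [this, ← h1]; group
      subst hCC
      have h2 : (((q'.out : N) : G)⁻¹ * ((q.out : N) : G)) * yC C =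
          yC C * (((q'.out : N) : G)⁻¹ * ((q.out : N) : G)) := by
        have : yC C = ((q'.out : N) : G)⁻¹ * (((q'.out : N) : G) * yC C * ((q'.out : N) : G)⁻¹) * ((q'.out : N) : G) := by group
        conv_rhs => rw [this, ← h1]
        group
      have h3 := selfCent_mem hp hx hC (hyP C) (hy1 C) h2
      have h4 : q' = q := by
        rw [← QuotientGroup.out_eq' q', ← QuotientGroup.out_eq' q, QuotientGroup.eq]
        exact h3
      rw [h4]
    · rintro ⟨y, hy, hy1'⟩
      have hyo : orderOf y = p := selfCent_orderOf hp hx hy hy1'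
      let C : {C : ConjClasses G // ∃ g ∈ C.carrier, orderOf g = p} :=
        ⟨ConjClasses.mk y, y, ConjClasses.mem_carrier_mk, hyo⟩
      have h1 : ConjClasses.mk (yC C) = ConjClasses.mk y := hyC C
      rw [ConjClasses.mk_eq_mk_iff_isConj, isConj_iff] at h1
      obtain ⟨c, hc⟩ := h1
      haveI : IsMulCommutative P :=
        ⟨⟨fun a b => Subtype.ext (hcomm a.1 (hP ▸ a.2) b.1 (hP ▸ b.2))⟩⟩
      obtain ⟨n, hn, hn2⟩ := Sylow.conj_eq_normalizer_conj_of_mem P (yC C) c⁻¹
        (by rw [← hP] at *; exact hyP C)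
        (by
          have : c⁻¹⁻¹ * yC C * c⁻¹ = y := by rw [inv_inv]; exact hc
          rw [this]
          have : y ∈ (P : Subgroup G) := by rw [hP]; exact hy
          exact this)
      have hnN : n⁻¹ ∈ N := by
        rw [hN, ← hP]; exact inv_mem hn
      have hy2 : y = n⁻¹ * yC C * n := by
        rw [← hn2, inv_inv]; exact hc.symm
      obtain ⟨u, hu⟩ := QuotientGroup.mk_out_eq_mul ((Subgroup.zpowers x).subgroupOf N) (⟨n⁻¹, hnN⟩ : N)
      refine ⟨(C, QuotientGroup.mk (⟨n⁻¹, hnN⟩ : N)), ?_⟩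
      apply Subtype.ext
      show ((Quotient.out (QuotientGroup.mk (⟨n⁻¹, hnN⟩ : N) : N ⧸ (Subgroup.zpowers x).subgroupOf N) : N) : G) * yC C * ((Quotient.out (QuotientGroup.mk (⟨n⁻¹, hnN⟩ : N) : N ⧸ (Subgroup.zpowers x).subgroupOf N) : N) : G)⁻¹ = y
      rw [hu]
      have hu2 : ((u : N) : G) ∈ Subgroup.zpowers x := u.2
      have h5 : ((u : N) : G) * yC C = yC C * ((u : N) : G) := hcomm _ hu2 _ (hyP C)
      have h6 : ((⟨n⁻¹, hnN⟩ * (u : N) : N) : G) = n⁻¹ * ((u : N) : G) := rfl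
      rw [h6, hy2]
      have : n⁻¹ * ((u : N) : G) * yC C * (n⁻¹ * ((u : N) : G))⁻¹ = n⁻¹ * (((u : N) : G) * yC C) * ((u : N) : G)⁻¹ * n := by group
      rw [this, h5]; group
  have h7 := Nat.card_congr (Equiv.ofBijective φ hφ)
  rw [Nat.card_prod, hY] at h7
  exact h7

end Cfsg.Agent.Lib.Helper7
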